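import Cfsg.Agent.Lib.Geometric.UnitaryTensorMax.Gap

/-!
The stabiliser of a unitary tensor product with factors of distinct dimensions is maximal in the
special unitary group: an element outside it in an overgroup is improved until it fixes the whole
slice of an isotropic vector.
-/

namespace CfsgLib.Geometric.Unitary

open Matrix Tensor MvPolynomial

variable {ι : Type} [Fintype ι] [DecidableEq ι] {F : Type*} [Field F] {σ : F ≃+* F}
variable {f : (ι → F) → (ι → F) → F} {n₁ n₂ : ℕ} {e : ι ≃ Fin n₁ × Fin n₂}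
  {P : GL ι F} {f₁ : (Fin n₁ → F) → (Fin n₁ → F) → F} {f₂ : (Fin n₂ → F) → (Fin n₂ → F) → F}
  {c : F}

lemma totalDegree_quad_le {κ : Type*} (s : Finset κ) (a : κ → κ → F) :
    (∑ l ∈ s, ∑ l' ∈ s, C (a l l') * X l * X l' : MvPolynomial κ F).totalDegree ≤ 2 := by
  refine totalDegree_finsetSum_le fun i _ => totalDegree_finsetSum_le fun j _ => ?_
  refine (totalDegree_mul _ _).trans ?_
  exact le_trans (Nat.add_le_add ((totalDegree_mul _ _).trans
    (Nat.add_le_add (totalDegree_C _).le (totalDegree_X i).le)) (totalDegree_X j).le) (le_of_eq rfl)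

lemma totalDegree_lin_le {κ : Type*} (s : Finset κ) (a : κ → F) :
    (∑ l ∈ s, C (a l) * X l : MvPolynomial κ F).totalDegree ≤ 1 := by
  refine totalDegree_finsetSum_le fun i _ => (totalDegree_mul _ _).trans ?_
  exact (Nat.add_le_add (totalDegree_C _).le (totalDegree_X i).le).trans (by norm_num)

/-- A family spanning a subspace over the fixed field, indexed by twice a basis. -/
lemma exists_fixed_coords (hf : IsSkewForm σ f₂) (S : Submodule F (Fin n₂ → F)) :
    ∃ β : Fin (Module.finrank F S) ⊕ Fin (Module.finrank F S) → (Fin n₂ → F),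
      (∀ l, β l ∈ S) ∧ ∀ x : Fin (Module.finrank F S) ⊕ Fin (Module.finrank F S) → F,
        (∀ l, σ (x l) = x l) → ∑ l, x l • β l = 0 → x = 0 := by
  obtain ⟨a, ha⟩ : ∃ a, σ a ≠ a := by
    by_contra h
    push Not at h
    exact hf.ne_refl (RingEquiv.ext h)
  let b := Module.finBasis F S
  refine ⟨Sum.elim (fun i => (b i : Fin n₂ → F)) fun i => a • (b i : Fin n₂ → F), fun l => ?_,
    fun x hx h => ?_⟩
  · rcases l with i | i
    · exact (b i).2
    · exact S.smul_mem _ (b i).2
  simp only [Fintype.sum_sum_type, Sum.elim_inl, Sum.elim_inr, smul_smul] at h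
  rw [← Finset.sum_add_distrib] at h
  have h' : ∑ i, (x (Sum.inl i) + x (Sum.inr i) * a) • b i = 0 := Subtype.ext (by
    simpa [Submodule.coe_sum, add_smul] using h)
  have h'' := Fintype.linearIndependent_iff.mp b.linearIndependent _ h'
  have hy : ∀ i, x (Sum.inr i) = 0 := fun i => by
    have h1 := h'' i
    have h2 := congrArg σ h1
    rw [map_add, map_mul, hx, hx, map_zero] at h2
    by_contra hne
    exact ha (mul_left_cancel₀ hne (by linear_combination h2 - h1))
  funext l
  rcases l with i | i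
  · have := h'' i
    rwa [hy, zero_mul, add_zero] at this
  · exact hy i

namespace HTensor

variable (hT : HTensor σ f e P f₁ f₂ c) {M : Subgroup (GL ι F)}
variable [Finite F] (hM : hT.Small M) (h12 : n₁ < n₂)
include hT hM h12

omit hM h12 in
/-- A hermitian matrix has a fixed determinant. -/
lemma σ_det {E : ℕ} (N : Matrix (Fin E) (Fin E) F)
    (hN : ∀ i j, σ (N i j) = N j i) : σ N.det = N.det := by
  rw [RingEquiv.map_det, ← Matrix.det_transpose]
  congr 1
  ext i j
  simp [RingEquiv.mapMatrix_apply, hN]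

/-- A singular conjugate of an element fixing the pointwise fixed part of a slice improves it. -/
lemma exists_more_of_poly {w : Fin n₂ → F} (hw : f₂ w w = 0) (hw0 : w ≠ 0) {g : GL ι F}
    (hg : g ∈ M) {U : Submodule F (Fin n₁ → F)}
    (hfix : ∀ u ∈ U, ap g (pt e P u w) = pt e P u w) {E d : ℕ} (hE : 0 < E)
    {b : Fin E → Fin n₁ → F}
    (hb : ∀ a : Fin n₁ → F, ∃ u ∈ U, ∃ l : Fin E → F, a = u + ∑ i, l i • b i)
    (hbU : ∀ l : Fin E → F, ∑ i, l i • b i ∈ U → l = 0) {κ : Type} [Fintype κ] [DecidableEq κ]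
    (Mp : Fin E → Fin E → MvPolynomial κ F) (q : MvPolynomial κ F) {Q : ℕ}
    (hMd : ∀ i j, (Mp i j).totalDegree ≤ d) (hqd : q.totalDegree ≤ Q)
    (hM0 : ∀ i j, eval (0 : κ → F) (Mp i j) = 0) (hq0 : eval (0 : κ → F) q = 0)
    (hqfix : ∀ x : κ → F, (∀ l, σ (x l) = x l) → σ (eval x q) = -eval x q)
    (hskew : ∀ x : κ → F, (∀ l, σ (x l) = x l) → ∀ i j,
      σ (eval x (Mp i j)) = eval x (Mp j i))
    (hcard : E * d + Q < Fintype.card κ)
    (hop : ∀ x : κ → F, x ≠ 0 → (∀ l, σ (x l) = x l) → eval x q = 0 → ∃ h ∈ M,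
      (∀ u ∈ U, ap h (pt e P u w) = pt e P u w) ∧
      g * h * g⁻¹ ∉ Cfsg.Geo.tensorProductSubgroup n₁ n₂ e P ∧
      ∀ i j, f (ap (g * h * g⁻¹) (pt e P (b i) w)) (pt e P (b j) w) = eval x (Mp i j)) :
    ∃ g ∈ M, g ∉ Cfsg.Geo.tensorProductSubgroup n₁ n₂ e P ∧ ∃ U' : Submodule F (Fin n₁ → F),
      U < U' ∧ ∀ u ∈ U', ap g (pt e P u w) = pt e P u w := by
  classical
  obtain ⟨θ, hθ⟩ := exists_trace hT.skew
  obtain ⟨ζ, hζ0, hζ⟩ := exists_skew hT.skew
  let M' : Matrix (Fin E) (Fin E) (MvPolynomial κ F) := Matrix.of Mp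
  have hev : ∀ x : κ → F, eval x M'.det = (Matrix.of fun i j => eval x (Mp i j)).det := by
    intro x
    rw [RingHom.map_det]
    congr 1
  obtain ⟨x, hx0, hxfix, hdet, hxq⟩ := exists_fixed_zero (σ : F →+* F) θ hθ
    (fun x => hT.skew.involutive x) M' (C ζ * q) hMd
    ((totalDegree_mul _ _).trans (by simpa [totalDegree_C] using hqd))
    hM0 (by rw [map_mul, hq0, mul_zero]) hE
    (fun x hx => ⟨by
      rw [hev]
      exact hT.σ_det _ fun i j => hskew x hx i j, by
      simp [hqfix x hx, hζ]⟩) hcard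
  have hxq' : eval x q = 0 := by
    rw [map_mul, eval_C] at hxq
    exact (mul_eq_zero.mp hxq).resolve_left hζ0
  obtain ⟨h, hh, hhU, hk, hval⟩ := hop x hx0 hxfix hxq'
  refine hT.exists_more hM h12 hw hw0 (mul_mem (mul_mem hg hh) (inv_mem hg)) hk
    (fun u hu => ?_) hb hbU ?_
  · rw [ap_mul, ap_mul]
    conv_lhs => rw [← hfix u hu, ap_inv_ap, hhU u hu]
    exact hfix u hu
  · simp only [hval]
    rw [← hev, RingHom.map_det]
    exact hdet

omit hM h12 in
/-- The pairing after conjugating an element moving only by `δ`. -/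
lemma form_conj {g h : GL ι F} (hg : g ∈ isom f) (p p' : ι → F) :
    f (ap (g * h * g⁻¹) p) p' = f (ap h (ap g⁻¹ p)) (ap g⁻¹ p') := by
  conv_lhs => rw [ap_mul, ap_mul, ← ap_ap_inv g p', mem_isom_iff.mp hg]

/-- For factors of dimensions three and four: the elements at a totally isotropic line of the
second factor improve an element outside the stabiliser. -/
lemma exists_step_line {w : Fin n₂ → F} (hw : f₂ w w = 0) (hw0 : w ≠ 0) {g : GL ι F} (hg : g ∈ M)
    (hgT : g ∉ Cfsg.Geo.tensorProductSubgroup n₁ n₂ e P) {U : Submodule F (Fin n₁ → F)}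
    (hfix : ∀ u ∈ U, ap g (pt e P u w) = pt e P u w) (h4 : n₂ = 4) {E : ℕ}
    (hE : 0 < E ∧ E ≤ 3) {b : Fin E → Fin n₁ → F}
    (hb : ∀ a : Fin n₁ → F, ∃ u ∈ U, ∃ l : Fin E → F, a = u + ∑ i, l i • b i)
    (hbU : ∀ l : Fin E → F, ∑ i, l i • b i ∈ U → l = 0) :
    ∃ g ∈ M, g ∉ Cfsg.Geo.tensorProductSubgroup n₁ n₂ e P ∧ ∃ U' : Submodule F (Fin n₁ → F),
      U < U' ∧ ∀ u ∈ U', ap g (pt e P u w) = pt e P u w := by
  classical
  have hg₂ := hT.skew₂
  have hgI := hM.le_isom hg
  obtain ⟨v, hvw, hvv, hvn⟩ : ∃ v, f₂ v w = 0 ∧ f₂ v v = 0 ∧ v ∉ Submodule.span F {w} := by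
    obtain ⟨z, hz, hzz⟩ := exists_aniso_perp hg₂ (by omega) w
    obtain ⟨y₁, y₂, h1, h2, h3, h4, rfl⟩ := exists_isotropic_add_perp hg₂ hT.pos₂ hz
    by_cases hy₁ : y₁ ∈ Submodule.span F {w}
    · refine ⟨y₂, h2, h4, fun hy₂ => hzz ?_⟩
      obtain ⟨s, hs⟩ := Submodule.mem_span_singleton.mp (Submodule.add_mem _ hy₁ hy₂)
      rw [← hs, hg₂.smul_left, smul_right hg₂, hw, mul_zero, mul_zero]
    · exact ⟨y₁, h1, h3, hy₁⟩
  obtain ⟨a, ha⟩ : ∃ a, σ a ≠ a := by
    by_contra h
    push Not at h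
    exact hg₂.ne_refl (RingEquiv.ext h)
  set p : Fin E → ι → F := fun i => ap g⁻¹ (pt e P (b i) w) with hpdef
  have hpp : ∀ i j, f (p i) (p j) = 0 := fun i j => by
    rw [hpdef, mem_isom_iff.mp (inv_mem hgI), hT.form_pt, hw, mul_zero, mul_zero]
  obtain ⟨B, hB⟩ : ∃ B : (Fin n₂ → F) → (Fin n₂ → F) → Fin E → Fin E → F, ∀ y y' i j,
      B y y' i j = -c * f₁ (hT.cc y (p i)) (hT.cc y' (p j)) :=
    ⟨fun y y' i j => -c * f₁ (hT.cc y (p i)) (hT.cc y' (p j)), fun _ _ _ _ => rfl⟩
  have hσB : ∀ y y' i j, σ (B y y' i j) = B y' y j i := fun y y' i j => by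
    simp only [hB, map_mul, map_neg, hT.σc]
    rw [hT.skew₁.skew (hT.cc y' (p j))]
    ring
  let coef : Fin E → Fin E → Fin 4 → F := fun i j =>
    ![B w w i j, B v v i j, B w v i j + B v w i j, a * B w v i j + σ a * B v w i j]
  let Mp : Fin E → Fin E → MvPolynomial (Fin 4) F := fun i j =>
    ∑ l : Fin 4, C (coef i j l) * X l
  have hval : ∀ x : Fin 4 → F, ∀ i j, eval x (Mp i j) = x 0 * B w w i j + x 1 * B v v i j +
      (x 2 + a * x 3) * B w v i j + (x 2 + σ a * x 3) * B v w i j := fun x i j => by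
    simp [Mp, coef, Fin.sum_univ_four]
    ring
  refine hT.exists_more_of_poly hM h12 hw hw0 hg hfix (d := 1) hE.1 hb hbU Mp 0 (Q := 0)
    (fun i j => totalDegree_lin_le _ _) (by simp) (fun i j => by simp [Mp]) (by simp)
    (fun x _ => by simp) (fun x hx i j => ?_) (by rw [Fintype.card_fin]; omega) ?_
  · simp only [hval, map_add, map_mul, hσB, hx, hT.skew.involutive]
    ring
  intro x hx0 hx _
  set s := x 0 with hs
  set k := x 1 with hk
  set α := x 2 + a * x 3 with hα
  have hσα : σ α = x 2 + σ a * x 3 := by rw [hα, map_add, map_mul, hx, hx]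
  have hαv : f₂ (α • v) w = 0 := by rw [hg₂.smul_left, hvw, mul_zero]
  set h := kron e P (1 : GL (Fin n₁) F) (Unitary.E hg₂ w (α • v) s hw hαv) *
    kron e P (1 : GL (Fin n₁) F) (T hg₂ v k hvv) with hh
  have hhx : ∀ X, ap h X = X + pt e P (α • hT.cc w X + k • hT.cc v X) v +
      pt e P (σ α • hT.cc v X + s • hT.cc w X) w := fun X => by
    rw [hh, ap_mul, hT.ap_kron_T, hT.ap_kron_E w (α • v) hw hαv]
    simp only [map_add, map_smul, cc_pt, hT.cc_smul, hvw, hvv, zero_smul, smul_zero, add_zero,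
      pt_add_left, pt_smul_left, pt_smul_right]
    module
  have hhM : h ∈ M := mul_mem
    (hM.stab_le (hT.kron_E_mem hw hαv (by
      rw [hx, sub_self, hg₂.smul_left, smul_right hg₂, hvv, mul_zero, mul_zero])))
    (hM.stab_le (hT.kron_T_mem hvv (hx 1)))
  have hwv : f₂ w v = 0 := (eq_zero_comm hg₂).mp hvw
  refine ⟨h, hhM, fun u _ => ?_, fun hkT => ?_, fun i j => ?_⟩
  · simp [hhx, hw, hwv, pt_zero_left]
  · refine hgT ?_
    by_cases hdet : α * σ α - k * s = 0
    swap
    · exact hT.mem_of_conj_line hM h12 hg hw hw0 hvw hvv hvn hdet hhM hhx hkT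
    by_cases hk0 : k = 0
    · have hα0 : α = 0 := by
        rw [hk0, zero_mul, sub_zero, mul_eq_zero] at hdet
        exact hdet.elim id fun h0 => by simpa using congrArg σ.symm h0
      have hs0 : s ≠ 0 := fun h0 => hx0 (funext fun l => by
        have h3 : x 3 = 0 := by
          by_contra h3
          refine ha (mul_right_cancel₀ h3 ?_)
          linear_combination (congrArg σ hα0).trans (map_zero σ) - hσα - hα0 + hα
        have h2 : x 2 = 0 := by simpa [hα, h3] using hα0
        fin_cases l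
        exacts [h0, hk0, h2, h3])
      refine hT.mem_of_conj_T hM h12 hg hw hw0 (hx 0) hs0 ?_
      convert hkT using 3
      refine gl_ext fun X => ?_
      rw [hhx, hT.ap_kron_T, hα0, hk0, map_zero]
      simp [pt_zero_left, pt_smul_left, hs]
    · set l := σ α / k with hl
      have hz : f₂ (v + l • w) (v + l • w) = 0 := by
        simp [hg₂.add_left, add_right hg₂, hg₂.smul_left, smul_right hg₂, hvv, hw, hvw, hwv]
      have hz0 : v + l • w ≠ 0 := fun h0 => hvn (by
        rw [eq_neg_of_add_eq_zero_left h0]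
        exact Submodule.neg_mem _ (Submodule.smul_mem _ _ (Submodule.mem_span_singleton_self w)))
      refine hT.mem_of_conj_T hM h12 hg hz hz0 (hx 1) hk0 ?_
      convert hkT using 3
      refine gl_ext fun X => ?_
      have e1 : k * l = σ α := by rw [hl, mul_div_cancel₀ _ hk0]
      have e2 : k * σ l = α := by
        rw [hl, map_div₀, hT.skew.involutive, hx, mul_div_cancel₀ _ hk0]
      have e3 : k * l * σ l = s := by
        rw [e1, hl, map_div₀, hT.skew.involutive, hx, mul_div_assoc', div_eq_iff hk0]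
        linear_combination hdet
      rw [hhx, hT.ap_kron_T, ← hk, hT.cc_add, hT.cc_smul]
      simp only [pt_add_left, pt_add_right, pt_smul_left, pt_smul_right]
      match_scalars <;> first | ring1 | linear_combination e1 | linear_combination e2 |
        linear_combination e3
  · rw [form_conj (hT := hT) hgI, hhx, hval]
    change f (p i + _ + _) (p j) = _
    simp only [hT.skew.add_left, hT.form_left, hpp i j, hT.skew₁.add_left, hT.skew₁.smul_left, hB,
      ← hs, ← hk, ← hα, hσα]
    change _ = _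
    ring

/-- An element outside the stabiliser fixing part of a slice can be improved. -/
theorem exists_step {w : Fin n₂ → F} (hw : f₂ w w = 0) (hw0 : w ≠ 0) {g : GL ι F} (hg : g ∈ M)
    (hgT : g ∉ Cfsg.Geo.tensorProductSubgroup n₁ n₂ e P) {U : Submodule F (Fin n₁ → F)}
    (hU : U ≠ ⊤) (hfix : ∀ u ∈ U, ap g (pt e P u w) = pt e P u w) :
    ∃ g ∈ M, g ∉ Cfsg.Geo.tensorProductSubgroup n₁ n₂ e P ∧ ∃ U' : Submodule F (Fin n₁ → F),
      U < U' ∧ ∀ u ∈ U', ap g (pt e P u w) = pt e P u w := by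
  classical
  have hp := hT.pos₁
  have h5 := hT.pos₂
  have hg₂ := hT.skew₂
  have hgI := hM.le_isom hg
  obtain ⟨Qc, hQc⟩ := U.exists_isCompl
  set m := Module.finrank F Qc with hEdef
  let bq := Module.finBasis F Qc
  set b : Fin m → Fin n₁ → F := fun i => (bq i : Fin n₁ → F) with hbdef
  have hd := Submodule.finrank_add_eq_of_isCompl hQc
  rw [Module.finrank_fin_fun] at hd
  have hUlt := Submodule.finrank_lt hU
  rw [Module.finrank_fin_fun] at hUlt
  have hE : 0 < m := by omega
  have hb : ∀ a : Fin n₁ → F, ∃ u ∈ U, ∃ l : Fin m → F, a = u + ∑ i, l i • b i := by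
    intro a
    obtain ⟨u, hu, q, hq, rfl⟩ := Submodule.mem_sup.mp
      (hQc.sup_eq_top ▸ Submodule.mem_top (x := a))
    refine ⟨u, hu, fun i => bq.repr ⟨q, hq⟩ i, ?_⟩
    congr 1
    have h0 := congrArg Subtype.val (bq.sum_repr ⟨q, hq⟩)
    simp only [Submodule.coe_sum, Submodule.coe_smul] at h0
    exact h0.symm
  have hbU : ∀ l : Fin m → F, ∑ i, l i • b i ∈ U → l = 0 := by
    intro l hl
    have h0 : (∑ i, l i • bq i : Qc) = 0 := Subtype.ext <| by
      have hmem : ∑ i, l i • b i ∈ Qc := Submodule.sum_mem _ fun i _ =>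
        Qc.smul_mem _ (bq i).2
      simpa [hbdef, Submodule.coe_sum] using Submodule.disjoint_def.mp hQc.disjoint _ hl hmem
    exact funext fun i => Fintype.linearIndependent_iff.mp bq.linearIndependent _ h0 i
  set p : Fin m → ι → F := fun i => ap g⁻¹ (pt e P (b i) w) with hpdef
  have hpp : ∀ i j, f (p i) (p j) = 0 := fun i j => by
    rw [hpdef, mem_isom_iff.mp (inv_mem hgI), hT.form_pt, hw, mul_zero, mul_zero]
  by_cases hline : n₂ = 4 ∧ n₁ = 3
  · exact hT.exists_step_line hM h12 hw hw0 hg hgT hfix hline.1 (by omega) hb hbU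
  by_cases hsmall : n₂ = n₁ + 1 ∧ Module.finrank F U ≤ 1
  · -- consecutive dimensions: Eichler elements at `w`
    obtain ⟨φ, -, hφw⟩ := exists_functional_eq_one
      (U := (⊥ : Submodule F (Fin n₂ → F))) (x := w) (by simpa using hw0)
    set S : Submodule F (Fin n₂ → F) := LinearMap.ker (fl hg₂ w) ⊓ LinearMap.ker φ with hS
    have hSdim : n₂ ≤ Module.finrank F S + 2 := by
      have hS' : S = LinearMap.ker ((fl hg₂ w).prod φ) := (LinearMap.ker_prod _ _).symm
      have h1 := ((fl hg₂ w).prod φ).finrank_range_add_finrank_ker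
      have h2 := Submodule.finrank_le (LinearMap.range ((fl hg₂ w).prod φ))
      rw [Module.finrank_prod, Module.finrank_self] at h2
      rw [Module.finrank_fin_fun, ← hS'] at h1
      omega
    obtain ⟨β, hβS, hβ⟩ := exists_fixed_coords hg₂ S
    set A : (Fin n₂ → F) → Fin m → Fin m → F := fun v i j =>
      -c * (f₁ (hT.cc w (p i)) (hT.cc v (p j)) + f₁ (hT.cc v (p i)) (hT.cc w (p j))) with hA
    set A₀ : Fin m → Fin m → F := fun i j => -c * f₁ (hT.cc w (p i)) (hT.cc w (p j)) with hA₀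
    let Mp : Fin m → Fin m → MvPolynomial (Unit ⊕ (Fin (Module.finrank F S) ⊕ Fin (Module.finrank F S))) F := fun i j =>
      C (A₀ i j) * X (Sum.inl ()) + ∑ l : (Fin (Module.finrank F S) ⊕ Fin (Module.finrank F S)), C (A (β l) i j) * X (Sum.inr l)
    let q : MvPolynomial (Unit ⊕ (Fin (Module.finrank F S) ⊕ Fin (Module.finrank F S))) F :=
      ∑ l : (Fin (Module.finrank F S) ⊕ Fin (Module.finrank F S)), ∑ l' : (Fin (Module.finrank F S) ⊕ Fin (Module.finrank F S)), C (f₂ (β l) (β l')) * X (Sum.inr l) * X (Sum.inr l')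
    have hv : ∀ x : Unit ⊕ (Fin (Module.finrank F S) ⊕ Fin (Module.finrank F S)) → F, (∀ l, σ (x l) = x l) →
        f₂ (∑ l, x (Sum.inr l) • β l) (∑ l, x (Sum.inr l) • β l) = eval x q := by
      intro x hx
      rw [← fl_apply hg₂, map_sum]
      simp only [q, map_sum, map_mul, eval_C, eval_X, map_smul, smul_eq_mul, fl_apply]
      refine Finset.sum_congr rfl fun l _ => ?_
      rw [hg₂.skew (β l), ← fl_apply hg₂, map_sum, map_sum, ← Finset.sum_neg_distrib,
        Finset.mul_sum]
      refine Finset.sum_congr rfl fun l' _ => ?_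
      rw [map_smul, smul_eq_mul, map_mul, fl_apply, hx, hg₂.skew (β l) (β l')]
      ring
    have hlin : ∀ x : Unit ⊕ (Fin (Module.finrank F S) ⊕ Fin (Module.finrank F S)) → F, (∀ l, σ (x l) = x l) → ∀ i j,
        eval x (Mp i j) = x (Sum.inl ()) * A₀ i j + A (∑ l, x (Sum.inr l) • β l) i j := by
      intro x hx i j
      simp only [Mp, map_add, map_sum, map_mul, eval_C, eval_X]
      rw [mul_comm (A₀ i j)]
      congr 1
      simp only [hA, hT.cc_sum, hT.cc_smul, hx]
      rw [← fl_apply hT.skew₁ (hT.cc w (p j)) (∑ l, _), map_sum,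
        hT.skew₁.skew (hT.cc w (p i)) (∑ l, _), ← fl_apply hT.skew₁ (hT.cc w (p i)) (∑ l, _),
        map_sum, map_sum, ← Finset.sum_neg_distrib, ← Finset.sum_add_distrib, Finset.mul_sum]
      refine Finset.sum_congr rfl fun l _ => ?_
      simp only [map_smul, smul_eq_mul, fl_apply, map_mul, hx]
      rw [hT.skew₁.skew (hT.cc w (p i))]
      ring
    have hσA : ∀ v i j, σ (A v i j) = A v j i := fun v i j => by
      simp only [hA, map_mul, map_neg, map_add, hT.σc]
      rw [hT.skew₁.skew (hT.cc w (p j)) (hT.cc v (p i)), hT.skew₁.skew (hT.cc v (p j))]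
      ring
    have hσA₀ : ∀ i j, σ (A₀ i j) = A₀ j i := fun i j => by
      simp only [hA₀, map_mul, map_neg, hT.σc]
      rw [hT.skew₁.skew (hT.cc w (p j))]
      ring
    refine hT.exists_more_of_poly hM h12 hw hw0 hg hfix (d := 1) hE hb hbU Mp q
      (fun i j => (totalDegree_add _ _).trans (max_le ((totalDegree_mul _ _).trans
        ((Nat.add_le_add (totalDegree_C _).le (totalDegree_X _).le).trans (by norm_num)))
        (totalDegree_finsetSum_le fun l _ => (totalDegree_mul _ _).trans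
          ((Nat.add_le_add (totalDegree_C _).le (totalDegree_X _).le).trans (by norm_num)))))
      (totalDegree_finsetSum_le fun i _ => totalDegree_finsetSum_le fun j _ =>
        (totalDegree_mul _ _).trans (le_trans (Nat.add_le_add ((totalDegree_mul _ _).trans
          (Nat.add_le_add (totalDegree_C _).le (totalDegree_X _).le)) (totalDegree_X _).le)
          (le_of_eq rfl)))
      (fun i j => by simp [Mp]) (by simp [q]) (fun x hx => ?_) (fun x hx i j => ?_) ?_ ?_
    · rw [← hv x hx]; exact skew_self hg₂ _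
    · rw [hlin x hx, hlin x hx, map_add, map_mul, hx, hσA, hσA₀]
    · simp only [Fintype.card_sum, Fintype.card_unit, Fintype.card_fin, mul_one]
      omega
    intro x hx0 hx hxq
    set s := x (Sum.inl ()) with hs
    set v := ∑ l, x (Sum.inr l) • β l with hvdef
    have hvS : v ∈ S := Submodule.sum_mem _ fun l _ => S.smul_mem _ (hβS l)
    have hvw : f₂ v w = 0 := hvS.1
    have hvv : f₂ v v = 0 := (hv x hx).trans hxq
    refine ⟨kron e P (1 : GL (Fin n₁) F) (Unitary.E hg₂ w v s hw hvw),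
      hM.stab_le (hT.kron_E_mem hw hvw (by rw [hx, sub_self, hvv])), fun u _ => ?_, fun hkT => ?_,
      fun i j => ?_⟩
    · simp [hT.ap_kron_E w v hw hvw, hw, (eq_zero_comm hg₂).mp hvw, pt_zero_left]
    · by_cases hv0 : v = 0
      · have hs0 : s ≠ 0 := fun h0 => hx0 (funext fun l => by
          rcases l with ⟨⟩ | l
          · exact h0
          · exact congrFun (hβ (fun l => x (Sum.inr l)) (fun l => hx _) hv0) l)
        refine hgT (hT.mem_of_conj_T hM h12 hg hw hw0 (hx _) hs0 ?_)
        convert hkT using 4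
        refine gl_ext fun z => ?_
        rw [ap_T hg₂, ap_E hg₂, hv0, zero_right hg₂]
        module
      · refine hgT (hT.mem_of_conj_line hM h12 hg hw hw0 hvw hvv (fun hm => hv0 ?_) (α := 1)
          (k := 0) (s := s) (by simp)
          (hM.stab_le (hT.kron_E_mem hw hvw (by rw [hx, sub_self, hvv]))) (fun X => by
            rw [hT.ap_kron_E w v hw hvw, map_one, one_smul, zero_smul, add_zero, one_smul,
              pt_add_left, pt_smul_left, add_assoc]) hkT)
        obtain ⟨t, ht⟩ := Submodule.mem_span_singleton.mp hm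
        have h1 : φ v = 0 := hvS.2
        rw [← ht, map_smul, hφw, smul_eq_mul, mul_one] at h1
        rw [← ht, h1, zero_smul]
    · rw [form_conj (hT := hT) hgI, hlin x hx, hT.ap_kron_E w v hw hvw]
      change f (p i + _ + _ + _) (p j) = _
      simp only [hT.skew.add_left, hT.skew.smul_left, hT.form_left, hpp i j, hA, hA₀, ← hvdef, ← hs]
      change _ = _
      ring
  -- transvections
  set S : Submodule F (Fin n₂ → F) :=
    if Module.finrank F U = 0 then ⊤ else LinearMap.ker (fl hg₂ w) with hS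
  have hSdim : Module.finrank F Qc + 2 ≤ Module.finrank F S := by
    by_cases h0 : Module.finrank F U = 0
    · rw [hS, if_pos h0, finrank_top, Module.finrank_fin_fun]
      omega
    · rw [hS, if_neg h0]
      have h1 := (fl hg₂ w).finrank_range_add_finrank_ker
      have h2 := Submodule.finrank_le (LinearMap.range (fl hg₂ w))
      rw [Module.finrank_self] at h2
      rw [Module.finrank_fin_fun] at h1
      omega
  obtain ⟨β, hβS, hβ⟩ := exists_fixed_coords hg₂ S
  set A : (Fin n₂ → F) → (Fin n₂ → F) → Fin m → Fin m → F := fun v v' i j =>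
    -c * f₁ (hT.cc v (p i)) (hT.cc v' (p j)) with hA
  let Mp : Fin m → Fin m → MvPolynomial (Fin (Module.finrank F S) ⊕ Fin (Module.finrank F S)) F := fun i j =>
    ∑ l : (Fin (Module.finrank F S) ⊕ Fin (Module.finrank F S)), ∑ l' : (Fin (Module.finrank F S) ⊕ Fin (Module.finrank F S)), C (A (β l) (β l') i j) * X l * X l'
  let q : MvPolynomial (Fin (Module.finrank F S) ⊕ Fin (Module.finrank F S)) F := ∑ l : (Fin (Module.finrank F S) ⊕ Fin (Module.finrank F S)), ∑ l' : (Fin (Module.finrank F S) ⊕ Fin (Module.finrank F S)), C (f₂ (β l) (β l')) * X l * X l'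
  have hz : ∀ x : (Fin (Module.finrank F S) ⊕ Fin (Module.finrank F S)) → F, (∀ l, σ (x l) = x l) →
      f₂ (∑ l, x l • β l) (∑ l, x l • β l) = eval x q := by
    intro x hx
    rw [← fl_apply hg₂, map_sum]
    simp only [q, map_sum, map_mul, eval_C, eval_X, map_smul, smul_eq_mul, fl_apply]
    refine Finset.sum_congr rfl fun l _ => ?_
    rw [hg₂.skew (β l), ← fl_apply hg₂, map_sum, map_sum, ← Finset.sum_neg_distrib,
      Finset.mul_sum]
    refine Finset.sum_congr rfl fun l' _ => ?_
    rw [map_smul, smul_eq_mul, map_mul, fl_apply, hx, hg₂.skew (β l) (β l')]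
    ring
  have hquad : ∀ x : (Fin (Module.finrank F S) ⊕ Fin (Module.finrank F S)) → F, (∀ l, σ (x l) = x l) → ∀ i j,
      eval x (Mp i j) = A (∑ l, x l • β l) (∑ l, x l • β l) i j := by
    intro x hx i j
    simp only [Mp, map_sum, map_mul, eval_C, eval_X, hA, hT.cc_sum, hT.cc_smul, hx]
    rw [← fl_apply hT.skew₁ (∑ l, _), map_sum, Finset.mul_sum]
    refine Finset.sum_congr rfl fun l _ => ?_
    rw [map_smul, smul_eq_mul, fl_apply, hT.skew₁.skew (hT.cc (β l) (p i)) (∑ l', _),
      ← fl_apply hT.skew₁ (hT.cc (β l) (p i)) (∑ l', _), map_sum, map_sum,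
      ← Finset.sum_neg_distrib, Finset.mul_sum, Finset.mul_sum]
    refine Finset.sum_congr rfl fun l' _ => ?_
    rw [map_smul, smul_eq_mul, map_mul, fl_apply, hx,
      hT.skew₁.skew (hT.cc (β l) (p i)) (hT.cc (β l') (p j))]
    ring
  have hσA : ∀ v i j, σ (A v v i j) = A v v j i := fun v i j => by
    simp only [hA, map_mul, map_neg, hT.σc]
    rw [hT.skew₁.skew (hT.cc v (p j))]
    ring
  refine hT.exists_more_of_poly hM h12 hw hw0 hg hfix (d := 2) hE hb hbU Mp q
    (fun i j => totalDegree_quad_le _ _) (totalDegree_quad_le _ _)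
    (fun i j => by simp [Mp]) (by simp [q]) (fun x hx => ?_) (fun x hx i j => ?_) ?_ ?_
  · rw [← hz x hx]; exact skew_self hg₂ _
  · rw [hquad x hx, hquad x hx, hσA]
  · simp only [Fintype.card_sum, Fintype.card_fin]
    omega
  intro x hx0 hx hxq
  set z := ∑ l, x l • β l with hzdef
  have hz0 : z ≠ 0 := fun h => hx0 (hβ x hx h)
  have hzz : f₂ z z = 0 := (hz x hx).trans hxq
  have hzS : z ∈ S := Submodule.sum_mem _ fun l _ => S.smul_mem _ (hβS l)
  refine ⟨kron e P (1 : GL (Fin n₁) F) (T hg₂ z 1 hzz),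
    hM.stab_le (hT.kron_T_mem hzz (map_one σ)), fun u hu => ?_,
    fun hkT => hgT (hT.mem_of_conj_T hM h12 hg hzz hz0 (map_one σ) one_ne_zero hkT),
    fun i j => ?_⟩
  · by_cases h0 : Module.finrank F U = 0
    · rw [Submodule.finrank_eq_zero.mp h0, Submodule.mem_bot] at hu
      rw [hu, pt_zero_left, ap_zero]
    · rw [hS, if_neg h0] at hzS
      rw [hT.ap_kron_T, cc_pt, (eq_zero_comm hg₂).mp (by simpa using hzS), zero_smul,
        pt_zero_left, smul_zero, add_zero]
  · rw [form_conj (hT := hT) hgI, hquad x hx, hT.ap_kron_T, one_smul]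
    change f (p i + _) (p j) = _
    rw [hT.skew.add_left, hT.form_left, hpp i j, zero_add]

/-- Such an overgroup is contained in the stabiliser. -/
theorem le_stab : M ≤ Cfsg.Geo.tensorProductSubgroup n₁ n₂ e P := by
  intro g hg
  by_contra hgT
  have h5 := hT.pos₂
  obtain ⟨w, -, hw0, hw⟩ := exists_isotropic hT.skew₂ (nondeg_perp_bot hT.skew₂)
    (by rw [finrank_perp_bot hT.skew₂, Fintype.card_fin]; omega)
  have key : ∀ d, d ≤ n₁ → ∃ g ∈ M, g ∉ Cfsg.Geo.tensorProductSubgroup n₁ n₂ e P ∧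
      ∃ U : Submodule F (Fin n₁ → F), d ≤ Module.finrank F U ∧
        ∀ u ∈ U, ap g (pt e P u w) = pt e P u w := by
    intro d
    induction d with
    | zero =>
      exact fun _ => ⟨g, hg, hgT, ⊥, Nat.zero_le _, fun u hu => by
        rw [(Submodule.mem_bot F).mp hu, pt_zero_left, ap_zero]⟩
    | succ d ih =>
      intro hd
      obtain ⟨k, hk, hkT, U, hUd, hfix⟩ := ih (by omega)
      by_cases hU : d + 1 ≤ Module.finrank F U
      · exact ⟨k, hk, hkT, U, hU, hfix⟩
      obtain ⟨k', hk', hkT', U', hlt, hfix'⟩ := hT.exists_step hM h12 hw hw0 hk hkT (fun htop => by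
        rw [htop, finrank_top, Module.finrank_fin_fun] at hU
        omega) hfix
      exact ⟨k', hk', hkT', U', by
        have := Submodule.finrank_lt_finrank_of_lt hlt
        omega, hfix'⟩
  obtain ⟨k, hk, hkT, U, hU, hfix⟩ := key n₁ le_rfl
  have htop : U = ⊤ := Submodule.eq_top_of_finrank_eq (le_antisymm (Submodule.finrank_le U)
    (by rw [Module.finrank_fin_fun]; exact hU))
  exact hkT (hT.mem_of_slice_map hM hk hw hw0 hw hw0 fun u => by
    rw [hfix u (htop ▸ Submodule.mem_top)]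
    exact pt_mem_slice e P _ _)

omit hM in
/-- The stabiliser of a unitary tensor product is maximal in the special unitary group. -/
theorem isMaximalIn (hq : 3 ≤ n₁ ∨ ∃ t : F, σ t = t ∧ t ≠ 0 ∧ t ≠ 1) :
    Cfsg.Geo.IsMaximalIn (isom f ⊓ Cfsg.Geo.specialLinear ι F)
      (Cfsg.Geo.tensorProductSubgroup n₁ n₂ e P ⊓ (isom f ⊓ Cfsg.Geo.specialLinear ι F)) := by
  have hp := hT.pos₁
  have h5 := hT.pos₂
  obtain ⟨w, -, hw0, hw⟩ := exists_isotropic hT.skew₂ (nondeg_perp_bot hT.skew₂)
    (by rw [finrank_perp_bot hT.skew₂, Fintype.card_fin]; omega)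
  refine ⟨lt_of_le_of_ne inf_le_right fun he => ?_, fun M' hHM hMS => ?_⟩
  · obtain ⟨u, -, hu0, hu⟩ := exists_isotropic hT.skew₁ (nondeg_perp_bot hT.skew₁)
      (by rw [finrank_perp_bot hT.skew₁, Fintype.card_fin]; omega)
    set p := pt e P u w
    have hpp : f p p = 0 := hT.isotropic_pt u hw
    have hm : T hT.skew p 1 hpp ∈
        Cfsg.Geo.tensorProductSubgroup n₁ n₂ e P ⊓ (isom f ⊓ Cfsg.Geo.specialLinear ι F) := by
      rw [he]
      exact T_mem hT.skew hpp (map_one σ)
    obtain ⟨a, b, hab⟩ := (mem_iff e P _).mp hm.1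
    have hX : ∀ x r, pt e P (ap a x) (ap b r) = pt e P x r + f (pt e P x r) p • p := fun x r => by
      rw [← hab, ap_T hT.skew, one_mul]
    obtain ⟨z, hz⟩ := exists_one hT.skew₂ hw0
    obtain ⟨v, hv⟩ := exists_one hT.skew₁ hu0
    have heig : ∀ x, ∃ t : F, (apEquiv a).toLinearMap x = t • x := by
      intro x
      obtain ⟨r, hr0, hr⟩ : ∃ r, r ≠ 0 ∧ f₂ r w = 0 := ⟨w, hw0, hw⟩
      have h := hX x r
      rw [hT.form_pt, hr, mul_zero, mul_zero, zero_smul, add_zero] at h
      obtain ⟨j, hj⟩ := Function.ne_iff.mp (ap_ne_zero b hr0)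
      refine ⟨r j / ap b r j, funext fun i => ?_⟩
      have h2 := congrFun ((coords e P).injective h) (i, j)
      simp only [Pi.zero_apply] at hj
      simp only [LinearEquiv.coe_coe, apEquiv_apply, Pi.smul_apply, smul_eq_mul] at h2 ⊢
      field_simp
      linear_combination h2
    obtain ⟨μ, hμ⟩ := exists_scalar heig
    simp only [LinearEquiv.coe_coe, apEquiv_apply] at hμ
    have h1 := hX v z
    rw [hμ, hT.form_pt, hv, hz, mul_one, mul_one, pt_smul_left, ← pt_smul_right] at h1
    obtain ⟨φ, hφ, hφ1⟩ := exists_functional_eq_one (U := Submodule.span F {v}) (x := u) (fun hm => by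
      obtain ⟨s, hs⟩ := Submodule.mem_span_singleton.mp hm
      have hvu : f₁ v u = 1 := hv
      have hsv : f₁ (s • v) u = f₁ u u := by rw [hs]
      rw [hT.skew₁.smul_left, hvu, mul_one, hu] at hsv
      exact hu0 (by rw [← hs, hsv, zero_smul]))
    have h2 := congrArg (conr e P φ) h1
    simp only [p, map_add, map_smul, conr_pt, hφ v (Submodule.mem_span_singleton_self v), hφ1,
      zero_smul, one_smul, zero_add] at h2
    exact hw0 ((smul_eq_zero.mp h2.symm).resolve_left hT.c_ne)
  · by_cases hS : isom f ⊓ Cfsg.Geo.specialLinear ι F ≤ M'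
    · exact Or.inr (le_antisymm hMS hS)
    refine Or.inl (le_antisymm (le_inf ?_ hMS) hHM)
    exact hT.le_stab ⟨hMS.trans inf_le_left, hHM, hq, fun u w hu0 hw0 hu hw hr =>
      hS (hT.le_of_root (hMS.trans inf_le_left) hHM hu hu0 hw hw0 hr)⟩ h12

end HTensor

end CfsgLib.Geometric.Unitary
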