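import Cfsg.Agent.Lib.Geometric.UnitaryGen
import Cfsg.Agent.Lib.Geometric.TensorMaps

/-!
A skew-hermitian form that is a tensor product of two skew-hermitian forms: contractions, the
factorwise isometries and the elementary maps of the second factor.
-/

namespace CfsgLib.Geometric.Unitary

open Matrix Tensor

variable {ι : Type} [Fintype ι] [DecidableEq ι] {F : Type*} [Field F]

/-- `f` is the tensor product of two skew-hermitian forms, scaled by `c`. -/
structure HTensor (σ : F ≃+* F) (f : (ι → F) → (ι → F) → F) {n₁ n₂ : ℕ}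
    (e : ι ≃ Fin n₁ × Fin n₂) (P : GL ι F) (f₁ : (Fin n₁ → F) → (Fin n₁ → F) → F)
    (f₂ : (Fin n₂ → F) → (Fin n₂ → F) → F) (c : F) : Prop where
  skew : IsSkewForm σ f
  skew₁ : IsSkewForm σ f₁
  skew₂ : IsSkewForm σ f₂
  c_ne : c ≠ 0
  pos₁ : 2 ≤ n₁
  pos₂ : 4 ≤ n₂
  form_pt : ∀ x x' y y', f (pt e P x y) (pt e P x' y') = c * (f₁ x x' * f₂ y y')

variable {σ : F ≃+* F} {f : (ι → F) → (ι → F) → F} {n₁ n₂ : ℕ} {e : ι ≃ Fin n₁ × Fin n₂}
  {P : GL ι F} {f₁ : (Fin n₁ → F) → (Fin n₁ → F) → F} {f₂ : (Fin n₂ → F) → (Fin n₂ → F) → F}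
  {c : F}

/-- A vector pairing to one with a given non-zero vector. -/
lemma exists_one {κ : Type} [Fintype κ] [DecidableEq κ] {g : (κ → F) → (κ → F) → F}
    (hg : IsSkewForm σ g) {x : κ → F} (hx : x ≠ 0) : ∃ z, g z x = 1 := by
  obtain ⟨y, hy⟩ := (hg.nondegenerate x hx).1
  exact ⟨(g y x)⁻¹ • y, by rw [hg.smul_left, inv_mul_cancel₀ hy]⟩

/-- Non-degeneracy of the first argument. -/
lemma eq_of_forall {κ : Type} [Fintype κ] [DecidableEq κ] {g : (κ → F) → (κ → F) → F}
    (hg : IsSkewForm σ g) {p r : κ → F} (h : ∀ b, g p b = g r b) : p = r := by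
  by_contra hne
  obtain ⟨b, hb⟩ := (hg.nondegenerate (p - r) (sub_ne_zero.mpr hne)).2
  exact hb (by rw [sub_left hg, h, sub_self])

lemma nondeg_perp_bot [Finite F] {κ : Type} [Fintype κ] [DecidableEq κ]
    {g : (κ → F) → (κ → F) → F} (hg : IsSkewForm σ g) :
    Cfsg.Geo.IsNondegenerateOn g (perp hg ⊥) :=
  perp_nondegenerate hg fun _ hx hne => absurd ((Submodule.mem_bot F).mp hx) hne

lemma finrank_perp_bot [Finite F] {κ : Type} [Fintype κ] [DecidableEq κ]
    {g : (κ → F) → (κ → F) → F} (hg : IsSkewForm σ g) :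
    Module.finrank F (perp hg ⊥) = Fintype.card κ := by
  have h := finrank_add_perp hg (W := ⊥) fun _ hx hne => absurd ((Submodule.mem_bot F).mp hx) hne
  rwa [finrank_bot, zero_add] at h

/-- An anisotropic vector. -/
lemma exists_aniso [Finite F] {m : ℕ} {g : (Fin m → F) → (Fin m → F) → F} (hg : IsSkewForm σ g)
    (hm : 1 ≤ m) : ∃ u, g u u ≠ 0 := by
  obtain ⟨u, -, hu⟩ := exists_anisotropic hg (nondeg_perp_bot hg) fun h => by
    have := finrank_perp_bot hg
    rw [h, finrank_bot, Fintype.card_fin] at this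
    omega
  exact ⟨u, hu⟩

namespace HTensor

variable (hT : HTensor σ f e P f₁ f₂ c)
include hT

lemma σc : σ c = -c := by
  have hp₂ := hT.pos₂
  have hp₁ := hT.pos₁
  obtain ⟨x', hx⟩ := exists_one hT.skew₁ (x := Pi.single ⟨0, by omega⟩ 1)
    (fun h => by simpa using congrFun h ⟨0, by omega⟩)
  obtain ⟨y', hy⟩ := exists_one hT.skew₂ (x := Pi.single ⟨0, by omega⟩ 1)
    (fun h => by simpa using congrFun h ⟨0, by omega⟩)
  have h := hT.skew.skew (pt e P (Pi.single ⟨0, by omega⟩ 1) (Pi.single ⟨0, by omega⟩ 1))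
    (pt e P x' y')
  rw [hT.form_pt, hT.form_pt, hT.skew₁.skew _ x', hT.skew₂.skew _ y', hx, hy, map_mul, map_mul,
    map_one] at h
  linear_combination h

omit hT in
/-- Contraction with `f₂(·, y)`. -/
def cc (hT : HTensor σ f e P f₁ f₂ c) (y : Fin n₂ → F) : (ι → F) →ₗ[F] (Fin n₁ → F) :=
  con e P (fl hT.skew₂ y)

@[simp] lemma cc_pt (y : Fin n₂ → F) (a : Fin n₁ → F) (z : Fin n₂ → F) :
    hT.cc y (pt e P a z) = f₂ z y • a := by simp [cc]

lemma cc_add (y y' : Fin n₂ → F) (v : ι → F) : hT.cc (y + y') v = hT.cc y v + hT.cc y' v := by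
  have h : hT.cc (y + y') = hT.cc y + hT.cc y' := ext_pt e P fun a z => by
    simp [add_right hT.skew₂, add_smul]
  exact LinearMap.congr_fun h v

lemma cc_smul (t : F) (y : Fin n₂ → F) (v : ι → F) : hT.cc (t • y) v = σ t • hT.cc y v := by
  have h : hT.cc (t • y) = σ t • hT.cc y := ext_pt e P fun a z => by
    simp [smul_right hT.skew₂, mul_smul]
  exact LinearMap.congr_fun h v

lemma cc_zero (v : ι → F) : hT.cc 0 v = 0 := by
  have h := hT.cc_smul 0 0 v
  simpa using h

lemma cc_sum {κ : Type*} (s : Finset κ) (y : κ → Fin n₂ → F) (v : ι → F) :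
    hT.cc (∑ i ∈ s, y i) v = ∑ i ∈ s, hT.cc (y i) v := by
  classical
  induction s using Finset.induction with
  | empty => simp [hT.cc_zero]
  | insert i s hi ih => rw [Finset.sum_insert hi, Finset.sum_insert hi, hT.cc_add, ih]

/-- Pairing with a pure tensor through the contraction. -/
lemma form_right (v : ι → F) (a : Fin n₁ → F) (z : Fin n₂ → F) :
    f v (pt e P a z) = c * f₁ (hT.cc z v) a := by
  have h : fl hT.skew (pt e P a z) = c • ((fl hT.skew₁ a).comp (hT.cc z)) :=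
    ext_pt e P fun x y => by
      simp only [fl_apply, hT.form_pt, LinearMap.smul_apply, LinearMap.comp_apply, cc_pt,
        smul_eq_mul, hT.skew₁.smul_left]
      ring
  simpa using LinearMap.congr_fun h v

lemma form_left (v : ι → F) (a : Fin n₁ → F) (z : Fin n₂ → F) :
    f (pt e P a z) v = -c * f₁ a (hT.cc z v) := by
  rw [hT.skew.skew, hT.form_right, map_mul, hT.σc, hT.skew₁.skew a]
  ring

/-- An isometry carries contractions at a slice to contractions at its image. -/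
lemma cc_ap {g : GL ι F} (hg : g ∈ isom f) {z z' : Fin n₂ → F} {a a' : Fin n₁ → F}
    (h : ap g (pt e P a z) = pt e P a' z') (v : ι → F) :
    f₁ (hT.cc z' (ap g v)) a' = f₁ (hT.cc z v) a := by
  have h1 := mem_isom_iff.mp hg v (pt e P a z)
  rw [h, hT.form_right, hT.form_right] at h1
  exact mul_left_cancel₀ hT.c_ne h1

/-- Factorwise isometries are isometries. -/
lemma kron_isometry {a : GL (Fin n₁) F} {b : GL (Fin n₂) F} (ha : a ∈ isom f₁)
    (hb : b ∈ isom f₂) : kron e P a b ∈ isom f := by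
  refine mem_isom_iff.mpr fun u v => ?_
  set k := kron e P a b
  -- pure vectors on the right
  have h1 : ∀ (x : ι → F) (p : Fin n₁ → F) (r : Fin n₂ → F),
      f (ap k x) (ap k (pt e P p r)) = f x (pt e P p r) := fun x p r => by
    have h0 : (fl hT.skew (ap k (pt e P p r))).comp (apEquiv k).toLinearMap =
        fl hT.skew (pt e P p r) := ext_pt e P fun p' r' => by
      simp [k, hT.form_pt, mem_isom_iff.mp ha, mem_isom_iff.mp hb]
    exact LinearMap.congr_fun h0 x
  have h0 : (fl hT.skew (ap k v)).comp (apEquiv k).toLinearMap = fl hT.skew v :=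
    ext_pt e P fun p r => by
      simp only [LinearMap.comp_apply, LinearEquiv.coe_coe, apEquiv_apply, fl_apply]
      rw [hT.skew.skew, h1, ← hT.skew.skew]
  exact LinearMap.congr_fun h0 u

/-- Factorwise special isometries lie in the stabiliser. -/
lemma kron_mem {a : GL (Fin n₁) F} {b : GL (Fin n₂) F}
    (ha : a ∈ isom f₁ ⊓ Cfsg.Geo.specialLinear (Fin n₁) F)
    (hb : b ∈ isom f₂ ⊓ Cfsg.Geo.specialLinear (Fin n₂) F) :
    kron e P a b ∈ Cfsg.Geo.tensorProductSubgroup n₁ n₂ e P ⊓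
      (isom f ⊓ Cfsg.Geo.specialLinear ι F) :=
  have h := kron_mem_inf e P ha.2 hb.2
  ⟨h.1, hT.kron_isometry ha.1 hb.1, h.2⟩

lemma ap_kron_T (w : Fin n₂ → F) (hw : f₂ w w = 0) (t : F) (v : ι → F) :
    ap (kron e P (1 : GL (Fin n₁) F) (T hT.skew₂ w t hw)) v = v + t • pt e P (hT.cc w v) w := by
  have h : (apEquiv (kron e P (1 : GL (Fin n₁) F) (T hT.skew₂ w t hw))).toLinearMap =
      LinearMap.id + t • (ptl e P w).comp (hT.cc w) :=
    ext_pt e P fun a y => by
      simp [ap_T hT.skew₂, pt_add_right, pt_smul_right, pt_smul_left, smul_smul]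
  exact LinearMap.congr_fun h v

lemma ap_kron_E (w y : Fin n₂ → F) (hw : f₂ w w = 0) (hy : f₂ y w = 0) (t : F) (v : ι → F) :
    ap (kron e P (1 : GL (Fin n₁) F) (E hT.skew₂ w y t hw hy)) v =
      v + pt e P (hT.cc w v) y + pt e P (hT.cc y v) w + t • pt e P (hT.cc w v) w := by
  have h : (apEquiv (kron e P (1 : GL (Fin n₁) F) (E hT.skew₂ w y t hw hy))).toLinearMap =
      LinearMap.id + (ptl e P y).comp (hT.cc w) + (ptl e P w).comp (hT.cc y) +
        t • (ptl e P w).comp (hT.cc w) :=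
    ext_pt e P fun a z => by
      simp [ap_E hT.skew₂, pt_add_right, pt_smul_right, pt_smul_left, smul_smul]
  exact LinearMap.congr_fun h v

omit hT in
lemma kron_mul (a a' : GL (Fin n₁) F) (b b' : GL (Fin n₂) F) :
    kron e P (a * a') (b * b') = kron e P a b * kron e P a' b' :=
  gl_ext_pt e P fun x y => by simp [ap_mul]

lemma one_mem₁ : (1 : GL (Fin n₁) F) ∈ isom f₁ ⊓ Cfsg.Geo.specialLinear (Fin n₁) F := one_mem _

lemma kron_T_mem {w : Fin n₂ → F} (hw : f₂ w w = 0) {t : F} (ht : σ t = t) :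
    kron e P (1 : GL (Fin n₁) F) (T hT.skew₂ w t hw) ∈
      Cfsg.Geo.tensorProductSubgroup n₁ n₂ e P ⊓ (isom f ⊓ Cfsg.Geo.specialLinear ι F) :=
  hT.kron_mem hT.one_mem₁ (T_mem hT.skew₂ hw ht)

lemma kron_E_mem {w y : Fin n₂ → F} (hw : f₂ w w = 0) (hy : f₂ y w = 0) {t : F}
    (ht : t - σ t = f₂ y y) :
    kron e P (1 : GL (Fin n₁) F) (E hT.skew₂ w y t hw hy) ∈
      Cfsg.Geo.tensorProductSubgroup n₁ n₂ e P ⊓ (isom f ⊓ Cfsg.Geo.specialLinear ι F) :=
  hT.kron_mem hT.one_mem₁ (E_mem hT.skew₂ ht)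

end HTensor

end CfsgLib.Geometric.Unitary
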