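import Cfsg.Agent.Lib.Geometric.UnitaryTensorMax.Slice

/-!
An overgroup of the stabiliser of a unitary tensor product holding a transvection with pure
centre contains the special unitary group.
-/

namespace CfsgLib.Geometric.Unitary

open Matrix Tensor

variable {ι : Type} [Fintype ι] [DecidableEq ι] {F : Type*} [Field F] {σ : F ≃+* F}

section Form

variable {f : (ι → F) → (ι → F) → F} (hf : IsSkewForm σ f)
include hf

/-- `M` holds all transvections with centre `x`. -/
def FullAt (hf : IsSkewForm σ f) (M : Subgroup (GL ι F)) (x : ι → F) : Prop :=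
  ∀ (h : f x x = 0) (t : F), σ t = t → T hf x t h ∈ M

/-- `M` holds an Eichler element with centre `p` and vector `y`. -/
def EMem (hf : IsSkewForm σ f) (M : Subgroup (GL ι F)) (p y : ι → F) : Prop :=
  ∃ (hp : f p p = 0) (hy : f y p = 0) (t : F), t - σ t = f y y ∧ E hf p y t hp hy ∈ M

variable {M : Subgroup (GL ι F)}

lemma FullAt.smul {x : ι → F} (h : FullAt hf M x) (a : F) : FullAt hf M (a • x) := by
  intro hax t ht
  by_cases ha : a = 0
  · rw [show T hf (a • x) t hax = 1 from gl_ext fun z => by simp [ap_T hf, ha]]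
    exact one_mem M
  have hx : f x x = 0 := by
    rw [hf.smul_left, smul_right hf, mul_eq_zero, mul_eq_zero] at hax
    simpa [ha] using hax
  rw [T_smul hf hx a t hax]
  exact h hx _ (by rw [map_mul, map_mul, hf.involutive, ht, mul_comm (σ a) a])

lemma FullAt.conj {x : ι → F} (h : FullAt hf M x) {g : GL ι F} (hg : g ∈ M) (hgI : g ∈ isom f) :
    FullAt hf M (ap g x) := by
  intro hgx t ht
  have hx : f x x = 0 := by rwa [mem_isom_iff.mp hgI] at hgx
  rw [← conj_T hf hgI hx t]
  exact mul_mem (mul_mem hg (h hx t ht)) (inv_mem hg)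

lemma EMem.zero {p : ι → F} (hp : f p p = 0) : EMem hf M p 0 := by
  refine ⟨hp, zero_left hf p, 0, by simp [zero_left hf], ?_⟩
  rw [show E hf p 0 0 hp (zero_left hf p) = 1 from
    gl_ext fun z => by simp [ap_E hf, zero_right hf]]
  exact one_mem M

lemma EMem.add {p y y' : ι → F} (h : EMem hf M p y) (h' : EMem hf M p y') :
    EMem hf M p (y + y') := by
  obtain ⟨hp, hy, t, ht, hm⟩ := h
  obtain ⟨_, hy', t', ht', hm'⟩ := h'
  have hyy : f (y + y') p = 0 := by rw [hf.add_left, hy, hy', add_zero]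
  refine ⟨hp, hyy, t + t' + f y' y, ?_, ?_⟩
  · rw [map_add, map_add, hf.add_left, add_right hf, add_right hf]
    linear_combination ht + ht' - hf.skew y y'
  · rw [← E_mul_E hf (h₁ := hy) (h₂ := hy') hyy]
    exact mul_mem hm hm'

lemma EMem.neg {p y : ι → F} (h : EMem hf M p y) : EMem hf M p (-y) := by
  obtain ⟨hp, hy, t, ht, hm⟩ := h
  have hy' : f (-y) p = 0 := by rw [neg_left hf, hy, neg_zero]
  refine ⟨hp, hy', -t + f y y, ?_, ?_⟩
  · rw [map_add, map_neg, skew_self hf, neg_left hf, neg_right hf]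
    linear_combination -ht
  · have h0 : f (-y + y) p = 0 := by rw [neg_add_cancel, zero_left hf]
    have e1 : E hf p (-y) (-t + f y y) hp hy' * E hf p y t hp hy = 1 := by
      rw [E_mul_E hf h0]
      refine gl_ext fun z => ?_
      simp [ap_E hf, zero_right hf, neg_right hf]
    rw [eq_inv_of_mul_eq_one_left e1]
    exact inv_mem hm

lemma EMem.sub {p y y' : ι → F} (h : EMem hf M p y) (h' : EMem hf M p y') :
    EMem hf M p (y - y') := by
  rw [sub_eq_add_neg]
  exact EMem.add hf h (EMem.neg hf h')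

lemma EMem.sum {p : ι → F} (hp : f p p = 0) {κ : Type*} (s : Finset κ) {y : κ → ι → F}
    (h : ∀ i, EMem hf M p (y i)) : EMem hf M p (∑ i ∈ s, y i) := by
  classical
  induction s using Finset.induction with
  | empty => simpa using EMem.zero hf hp
  | insert i s hi ih => rw [Finset.sum_insert hi]; exact EMem.add hf (h i) ih

lemma EMem.conj {p y : ι → F} (h : EMem hf M p y) {g : GL ι F} (hg : g ∈ M) (hgI : g ∈ isom f)
    (hgp : ap g p = p) : EMem hf M p (ap g y) := by
  obtain ⟨hp, hy, t, ht, hm⟩ := h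
  have hgy : f (ap g y) p = 0 := by
    conv_lhs => rw [← hgp]
    rw [mem_isom_iff.mp hgI, hy]
  refine ⟨hp, hgy, t, by rw [mem_isom_iff.mp hgI, ht], ?_⟩
  convert mul_mem (mul_mem hg hm) (inv_mem hg) using 1
  refine gl_ext fun z => ?_
  obtain ⟨z, rfl⟩ : ∃ z', ap g z' = z := ⟨_, ap_ap_inv g z⟩
  have h1 : f (ap g z) p = f z p := by
    conv_lhs => rw [← hgp]
    rw [mem_isom_iff.mp hgI]
  simp only [ap_mul, ap_inv_ap, ap_E hf, ap_add, ap_smul, mem_isom_iff.mp hgI, hgp, h1]

lemma EMem.of_full {p y : ι → F} (hp : f p p = 0) (hy : f y y = 0) (hyp : f y p = 0)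
    (h1 : FullAt hf M p) (h2 : FullAt hf M y) (h3 : FullAt hf M (p + y)) : EMem hf M p y := by
  have hpy : f (p + y) (p + y) = 0 := by
    rw [hf.add_left, add_right hf, add_right hf, hp, hy, hyp, (eq_zero_comm hf).mp hyp]; ring
  refine ⟨hp, hyp, 0, by rw [map_zero, sub_zero, hy], ?_⟩
  rw [← E_eq_T_mul hf hy hpy]
  exact mul_mem (mul_mem (h3 hpy 1 (map_one σ)) (h1 hp _ (by simp))) (h2 hy _ (by simp))

lemma EMem.all_mem {p y : ι → F} (h : EMem hf M p y) (hfull : FullAt hf M p) (hp : f p p = 0)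
    (hy : f y p = 0) {t : F} (ht : t - σ t = f y y) : E hf p y t hp hy ∈ M := by
  obtain ⟨_, _, t', ht', hm⟩ := h
  have hd : σ (t - t') = t - t' := by rw [map_sub]; linear_combination ht' - ht
  have := mul_mem hm (hfull hp _ hd)
  rwa [E_mul_T hf, add_sub_cancel] at this

end Form

namespace HTensor

variable {f : (ι → F) → (ι → F) → F} {n₁ n₂ : ℕ} {e : ι ≃ Fin n₁ × Fin n₂}
  {P : GL ι F} {f₁ : (Fin n₁ → F) → (Fin n₁ → F) → F} {f₂ : (Fin n₂ → F) → (Fin n₂ → F) → F}
  {c : F} (hT : HTensor σ f e P f₁ f₂ c) {M : Subgroup (GL ι F)}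

include hT

lemma isotropic_pt (a : Fin n₁ → F) {z : Fin n₂ → F} (hz : f₂ z z = 0) :
    f (pt e P a z) (pt e P a z) = 0 := by rw [hT.form_pt, hz, mul_zero, mul_zero]

/-- The isotropic vectors with a full slice at `a`. -/
def FullSlice (hT : HTensor σ f e P f₁ f₂ c) (M : Subgroup (GL ι F)) (a : Fin n₁ → F) : Prop :=
  ∀ z, f₂ z z = 0 → FullAt hT.skew M (pt e P a z)

variable [Finite F] (hMI : M ≤ isom f)
  (hH : Cfsg.Geo.tensorProductSubgroup n₁ n₂ e P ⊓ (isom f ⊓ Cfsg.Geo.specialLinear ι F) ≤ M)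
include hMI hH

/-- One transvection with pure centre gives all of the slice. -/
lemma fullSlice_of_root {u : Fin n₁ → F} {w : Fin n₂ → F} (hw : f₂ w w = 0) (hw0 : w ≠ 0)
    (h : hT.HasRootAt M (pt e P u w)) : hT.FullSlice M u := by
  obtain ⟨hp, t₀, ht₀, ht0, hm⟩ := h
  have hfull : FullAt hT.skew M (pt e P u w) := by
    intro _ t ht
    by_cases htz : t = 0
    · rw [show T hT.skew (pt e P u w) t hp = 1 from gl_ext fun z => by simp [ap_T hT.skew, htz]]
      exact one_mem M
    obtain ⟨l, hl⟩ := exists_norm hT.skew (c := t / t₀) (by rw [map_div₀, ht, ht₀])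
    have hl0 : l ≠ 0 := fun h0 => div_ne_zero htz ht0 (by rw [← hl, h0, zero_mul])
    obtain ⟨b, hb, hbw⟩ := hT.exists_scale hw hH hw0 hl0
    have hkr := hH (hT.kron_mem hT.one_mem₁ hb)
    have hc : kron e P 1 b * T hT.skew (pt e P u w) t₀ hp * (kron e P 1 b)⁻¹ ∈ M :=
      mul_mem (mul_mem hkr hm) (inv_mem hkr)
    rw [conj_T hT.skew (hMI hkr) hp] at hc
    convert hc using 1
    refine gl_ext fun z => ?_
    simp only [ap_T hT.skew, ap_kron, ap_one, hbw, pt_smul_right, smul_right hT.skew, smul_smul]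
    congr 2
    field_simp at hl
    linear_combination -(f z (pt e P u w)) * hl
  intro z hz
  by_cases hz0 : z = 0
  · intro _ t _
    rw [show ∀ h, T hT.skew (pt e P u z) t h = 1 from fun h => gl_ext fun X => by
      simp [ap_T hT.skew, hz0, pt_zero_right]]
    exact one_mem M
  have hp₂ := hT.pos₂
  obtain ⟨b, -, hb, -, hbw⟩ := exists_move hT.skew₂ (M := ⊤) (fun _ _ _ _ => Subgroup.mem_top _)
    (by rw [Fintype.card_fin]; omega) (U := ⊥) (nondeg_perp_bot hT.skew₂)
    (by rw [finrank_perp_bot hT.skew₂, Fintype.card_fin]; omega) (x := w) (y := z)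
    (mem_perp_bot hT.skew₂ _) (mem_perp_bot hT.skew₂ _) hw hz hw0 hz0
  have hkr := hH (hT.kron_mem hT.one_mem₁ hb)
  have := FullAt.conj hT.skew hfull hkr (hMI hkr)
  rwa [ap_kron, ap_one, hbw] at this

lemma fullSlice_ap {u : Fin n₁ → F} (h : hT.FullSlice M u) {a : GL (Fin n₁) F}
    (ha : a ∈ isom f₁ ⊓ Cfsg.Geo.specialLinear (Fin n₁) F) : hT.FullSlice M (ap a u) := by
  intro z hz
  have hkr := hH (hT.kron_mem ha (one_mem _))
  have := FullAt.conj hT.skew (h z hz) hkr (hMI hkr)
  rwa [ap_kron, ap_one] at this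

variable {u : Fin n₁ → F} (hu : f₁ u u = 0) (hu0 : u ≠ 0) (hfull : hT.FullSlice M u)
include hu hu0 hfull

/-- The Eichler elements at a full pure centre along the orthogonal of its slice. -/
lemma eMem_perp {w : Fin n₂ → F} (hw : f₂ w w = 0) (hw0 : w ≠ 0) (a : Fin n₁ → F)
    {z : Fin n₂ → F} (hz : f₂ z w = 0) : EMem hT.skew M (pt e P u w) (pt e P a z) := by
  have hg := hT.skew₁
  have hp := hT.pos₁
  have hg₂ := hT.skew₂
  have hpp := hT.isotropic_pt u hw
  -- the same factor
  have hA : ∀ z, f₂ z w = 0 → EMem hT.skew M (pt e P u w) (pt e P u z) := by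
    intro z hz
    obtain ⟨z₁, z₂, h1, h2, h3, h4, rfl⟩ := exists_isotropic_add_perp hg₂ hT.pos₂ hz
    have key : ∀ z, f₂ z w = 0 → f₂ z z = 0 → EMem hT.skew M (pt e P u w) (pt e P u z) := by
      intro z hz hzz
      refine EMem.of_full hT.skew hpp (hT.isotropic_pt u hzz)
        (by rw [hT.form_pt, hz, mul_zero, mul_zero]) (hfull w hw) (hfull z hzz) ?_
      rw [← pt_add_right]
      exact hfull _ (by
        rw [hg₂.add_left, add_right hg₂, add_right hg₂, hw, hzz, hz,
          (eq_zero_comm hg₂).mp hz]; ring)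
    rw [pt_add_right]
    exact EMem.add hT.skew (key _ h1 h3) (key _ h2 h4)
  -- a full vector of the first factor not orthogonal
  have hB : ∀ v, hT.FullSlice M v → f₁ u v ≠ 0 → ∀ z, f₂ z w = 0 →
      EMem hT.skew M (pt e P u w) (pt e P v z) := by
    intro v hv huv
    have key : ∀ z, f₂ z w = 0 → f₂ z z = 0 → z ∉ Submodule.span F {w} →
        EMem hT.skew M (pt e P u w) (pt e P v z) := by
      intro z hz hzz hzn
      obtain ⟨z', hz', hzz'⟩ := exists_perp_ne hg₂ hzn
      have hz'w : f₂ z' w = 0 := (mem_perp_span hg₂).mp hz'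
      have hh : T hT.skew (pt e P v z) 1 (hT.isotropic_pt v hzz) ∈ M :=
        hv z hzz _ 1 (map_one σ)
      have hfix : ap (T hT.skew (pt e P v z) 1 (hT.isotropic_pt v hzz)) (pt e P u w) = pt e P u w :=
        ap_T_fix hT.skew _ (by rw [hT.form_pt, (eq_zero_comm hg₂).mp hz, mul_zero, mul_zero])
      set d := c * (f₁ u v * f₂ z' z) with hd
      have hd0 : d ≠ 0 := mul_ne_zero hT.c_ne (mul_ne_zero huv (hzz' ∘ (eq_zero_comm hg₂).mp))
      have hz'' : f₂ (d⁻¹ • z') w = 0 := by rw [hg₂.smul_left, hz'w, mul_zero]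
      have h1 := EMem.sub hT.skew
        (EMem.conj hT.skew (hA _ hz'') hh (hMI hh) hfix) (hA _ hz'')
      convert h1 using 1
      rw [ap_T hT.skew, pt_smul_right, hT.skew.smul_left, hT.form_pt, ← hd, inv_mul_cancel₀ hd0,
        one_mul, one_smul, add_sub_cancel_left]
    obtain ⟨y, hy, hyy, hyn⟩ : ∃ y, f₂ y w = 0 ∧ f₂ y y = 0 ∧ y ∉ Submodule.span F {w} := by
      obtain ⟨z, hz, hzz⟩ := exists_aniso_perp hg₂ (by have := hT.pos₂; omega) w
      obtain ⟨y₁, y₂, h1, h2, h3, h4, rfl⟩ := exists_isotropic_add_perp hg₂ hT.pos₂ hz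
      by_cases hy₁ : y₁ ∈ Submodule.span F {w}
      · refine ⟨y₂, h2, h4, fun hy₂ => hzz ?_⟩
        obtain ⟨s, hs⟩ := Submodule.mem_span_singleton.mp (Submodule.add_mem _ hy₁ hy₂)
        rw [← hs, hg₂.smul_left, smul_right hg₂, hw, mul_zero, mul_zero]
      · exact ⟨y₁, h1, h3, hy₁⟩
    have key' : ∀ z, f₂ z w = 0 → f₂ z z = 0 →
        EMem hT.skew M (pt e P u w) (pt e P v z) := by
      intro z hz hzz
      by_cases hzn : z ∈ Submodule.span F {w}
      · obtain ⟨s, rfl⟩ := Submodule.mem_span_singleton.mp hzn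
        have h1 := key (y + s • w) (by rw [hg₂.add_left, hy, hz, add_zero])
          (by rw [hg₂.add_left, add_right hg₂, add_right hg₂, hyy, hzz, smul_right hg₂, hy,
            hg₂.smul_left, (eq_zero_comm hg₂).mp hy]; ring) fun hm => hyn
          ((Submodule.add_mem_iff_left _ hzn).mp hm)
        have h2 := EMem.sub hT.skew h1 (key y hy hyy hyn)
        rwa [← pt_sub_right, add_sub_cancel_left] at h2
      · exact key z hz hzz hzn
    intro z hz
    obtain ⟨z₁, z₂, h1, h2, h3, h4, rfl⟩ := exists_isotropic_add_perp hg₂ hT.pos₂ hz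
    rw [pt_add_right]
    exact EMem.add hT.skew (key' _ h1 h3) (key' _ h2 h4)
  -- the submodule of good first vectors
  let S : Submodule F (Fin n₁ → F) :=
    { carrier := {a | ∀ z, f₂ z w = 0 → EMem hT.skew M (pt e P u w) (pt e P a z)}
      add_mem' := fun ha hb z hz => by
        rw [pt_add_left]; exact EMem.add hT.skew (ha z hz) (hb z hz)
      zero_mem' := fun z _ => by rw [pt_zero_left]; exact EMem.zero hT.skew hpp
      smul_mem' := fun t a ha z hz => by
        rw [pt_smul_left, ← pt_smul_right]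
        exact ha _ (by rw [hg₂.smul_left, hz, mul_zero]) }
  have huS : u ∈ S := hA
  have hisoS : ∀ x, f₁ x x = 0 → f₁ u x ≠ 0 → x ∈ S := by
    intro x hx hux
    have hτ := T_mem hg hx (c := 1) (map_one σ)
    have hv := hT.fullSlice_ap hMI hH hfull hτ
    rw [ap_T hg, one_mul] at hv
    have h1 : u + f₁ u x • x ∈ S := hB _ hv (by
      rw [add_right hg, smul_right hg, hu, zero_add]
      exact mul_ne_zero ((map_ne_zero_iff σ σ.injective).mpr hux) hux)
    have h2 := S.smul_mem (f₁ u x)⁻¹ (S.sub_mem h1 huS)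
    rwa [add_sub_cancel_left, smul_smul, inv_mul_cancel₀ hux, one_smul] at h2
  obtain ⟨p, hp'⟩ := exists_one hg hu0
  obtain ⟨l, hl⟩ := exists_isotropic_shift hg hu (by rw [hp']; exact one_ne_zero)
  set v := p + l • u with hvdef
  have hvu : f₁ v u = 1 := by rw [hvdef, hg.add_left, hg.smul_left, hp', hu, mul_zero, add_zero]
  have huv : f₁ u v = -1 := by rw [hg.skew u v, hvu, map_one]
  have hvS : v ∈ S := hisoS v hl (by rw [huv]; exact neg_ne_zero.mpr one_ne_zero)
  suffices h : a ∈ S from h z hz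
  set a₀ := a - (f₁ a u) • v + (f₁ a v) • u with ha₀
  have ha₀u : f₁ a₀ u = 0 := by
    rw [ha₀, hg.add_left, sub_left hg, hg.smul_left, hg.smul_left, hu, hvu]; ring
  have ha₀v : f₁ a₀ v = 0 := by
    rw [ha₀, hg.add_left, sub_left hg, hg.smul_left, hg.smul_left, hl, huv]; ring
  obtain ⟨b, hb⟩ := exists_sub_eq hg (s := f₁ a₀ a₀) (skew_self hg _)
  have hx0 : f₁ (v + a₀ + b • u) (v + a₀ + b • u) = 0 := by
    simp only [hg.add_left, add_right hg, hg.smul_left, smul_right hg, hu, hl, hvu, huv,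
      ha₀u, ha₀v, (eq_zero_comm hg).mp ha₀u, (eq_zero_comm hg).mp ha₀v]
    linear_combination -hb
  have hxS := hisoS _ hx0 (by
    rw [add_right hg, add_right hg, smul_right hg, huv, (eq_zero_comm hg).mp ha₀u, hu]; simp)
  have ha₀S : a₀ ∈ S := by
    have := S.sub_mem (S.sub_mem hxS (S.smul_mem b huS)) hvS
    rwa [add_sub_cancel_right, add_sub_cancel_left] at this
  have ha' : a = a₀ + (f₁ a u) • v - (f₁ a v) • u := by rw [ha₀]; module
  rw [ha']
  exact S.sub_mem (S.add_mem ha₀S (S.smul_mem _ hvS)) (S.smul_mem _ huS)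

/-- All Eichler elements at a full pure centre. -/
lemma eMem_all {w : Fin n₂ → F} (hw : f₂ w w = 0) (hw0 : w ≠ 0) {X : ι → F}
    (hX : f X (pt e P u w) = 0) : EMem hT.skew M (pt e P u w) X := by
  have hg := hT.skew₁
  have hg₂ := hT.skew₂
  have hpp := hT.isotropic_pt u hw
  obtain ⟨y, hy, hyy, hyn⟩ : ∃ y, f₂ y w = 0 ∧ f₂ y y = 0 ∧ y ∉ Submodule.span F {w} := by
    obtain ⟨z, hz, hzz⟩ := exists_aniso_perp hg₂ (by have := hT.pos₂; omega) w
    obtain ⟨y₁, y₂, h1, h2, h3, h4, rfl⟩ := exists_isotropic_add_perp hg₂ hT.pos₂ hz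
    by_cases hy₁ : y₁ ∈ Submodule.span F {w}
    · refine ⟨y₂, h2, h4, fun hy₂ => hzz ?_⟩
      obtain ⟨s, hs⟩ := Submodule.mem_span_singleton.mp (Submodule.add_mem _ hy₁ hy₂)
      rw [← hs, hg₂.smul_left, smul_right hg₂, hw, mul_zero, mul_zero]
    · exact ⟨y₁, h1, h3, hy₁⟩
  have hy0 : y ≠ 0 := fun h => hyn (by rw [h]; exact Submodule.zero_mem _)
  have hwn : w ∉ Submodule.span F {y} := fun h => by
    obtain ⟨s, hs⟩ := Submodule.mem_span_singleton.mp h
    have hs0 : s ≠ 0 := fun h0 => hw0 (by rw [← hs, h0, zero_smul])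
    exact hyn (Submodule.mem_span_singleton.mpr ⟨s⁻¹, by rw [← hs, inv_smul_smul₀ hs0]⟩)
  obtain ⟨p, hp', hwp⟩ := exists_perp_ne hg₂ hwn
  set z₀ := (f₂ p w)⁻¹ • p with hz₀
  have hz₀y : f₂ z₀ y = 0 := by
    rw [hz₀, hg₂.smul_left, (mem_perp_span hg₂).mp hp', mul_zero]
  have hz₀w : f₂ z₀ w = 1 := by
    rw [hz₀, hg₂.smul_left, inv_mul_cancel₀ (hwp ∘ (eq_zero_comm hg₂).mp)]
  -- the transversal part
  have hC : ∀ a, f₁ a u = 0 → EMem hT.skew M (pt e P u w) (pt e P a z₀) := by
    intro a ha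
    obtain ⟨p₁, hp₁⟩ := exists_one hg hu0
    obtain ⟨l, hl⟩ := exists_isotropic_shift hg hu (by rw [hp₁]; exact one_ne_zero)
    set v := p₁ + l • u with hvdef
    have hvu : f₁ v u = 1 := by rw [hvdef, hg.add_left, hg.smul_left, hp₁, hu, mul_zero, add_zero]
    have huv : f₁ u v = -1 := by rw [hg.skew u v, hvu, map_one]
    have hτ := T_mem hg hl (c := 1) (map_one σ)
    have hvfull := hT.fullSlice_ap hMI hH hfull hτ
    rw [ap_T hg, huv, one_mul] at hvfull
    set v' := u + (-1 : F) • v with hv'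
    have hv'0 : f₁ v' v' = 0 := by
      rw [hv', hg.add_left, add_right hg, add_right hg, hg.smul_left, hg.smul_left,
        smul_right hg, smul_right hg, hu, hl, huv, hvu, map_neg, map_one]
      ring
    have hv'n : v' ≠ 0 := fun h => by
      have h1 := congrArg (fun x => f₁ x v) h
      simp [hv', hg.add_left, hg.smul_left, neg_left hg, huv, hl, zero_left hg] at h1
    obtain ⟨hr, hyr, t, ht, hh⟩ := hT.eMem_perp hMI hH hv'0 hv'n hvfull hyy hy0 a hz₀y
    obtain ⟨z', hz', hyz'⟩ := exists_perp_ne hg₂ hyn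
    have hz'w : f₂ z' w = 0 := (mem_perp_span hg₂).mp hz'
    set h := E hT.skew (pt e P v' y) (pt e P a z₀) t hr hyr
    have hhp : ap h (pt e P u w) = pt e P u w := by
      rw [ap_E hT.skew, hT.form_pt, hT.form_pt, (eq_zero_comm hg₂).mp hy,
        (eq_zero_comm hg).mp ha]
      simp
    set d := c * (f₁ u v' * f₂ z' y) with hd
    have hd0 : d ≠ 0 := by
      refine mul_ne_zero hT.c_ne (mul_ne_zero ?_ (hyz' ∘ (eq_zero_comm hg₂).mp))
      rw [hv', add_right hg, smul_right hg, hu, huv, map_neg, map_one]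
      simp
    have hz'' : f₂ (d⁻¹ • z') w = 0 := by rw [hg₂.smul_left, hz'w, mul_zero]
    have hq := hT.eMem_perp hMI hH hu hu0 hfull hw hw0 u hz''
    have h1 := EMem.sub hT.skew (EMem.conj hT.skew hq hh (hMI hh) hhp) hq
    set q := pt e P u (d⁻¹ • z') with hqdef
    have hqr : f q (pt e P v' y) = 1 := by
      rw [hqdef, pt_smul_right, hT.skew.smul_left, hT.form_pt, ← hd, inv_mul_cancel₀ hd0]
    set k₁ := f q (pt e P a z₀) + t with hk₁
    have h2 := hT.eMem_perp hMI hH hu hu0 hfull hw hw0 (k₁ • v') hy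
    have h3 := EMem.sub hT.skew h1 h2
    convert h3 using 1
    rw [ap_E hT.skew, hqr, pt_smul_left, hk₁]
    module
  -- decomposition
  have hdec : X = (∑ j, pt e P (con e P (LinearMap.proj j) X)
      (Pi.single j 1 - (f₂ (Pi.single j 1) w) • z₀)) + pt e P (hT.cc w X) z₀ := by
    have h : LinearMap.id = (∑ j, (ptl e P (Pi.single j 1 - (f₂ (Pi.single j 1) w) • z₀)).comp
        (con e P (LinearMap.proj j))) + (ptl e P z₀).comp (hT.cc w) :=
      ext_pt e P fun a z => by
        simp only [LinearMap.id_apply, LinearMap.add_apply, LinearMap.sum_apply,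
          LinearMap.comp_apply, con_pt, LinearMap.proj_apply, ptl_apply, cc_pt, pt_smul_left,
          ← pt_smul_right]
        simp only [← ptr_apply e P a, ← map_sum, ← map_add]
        congr 1
        conv_lhs => rw [pi_eq_sum_univ' z]
        have hzw : f₂ z w = ∑ j, z j * f₂ (Pi.single j 1) w := by
          conv_lhs => rw [pi_eq_sum_univ' z, ← fl_apply hg₂, map_sum]
          simp
        simp only [smul_sub, Finset.sum_sub_distrib, smul_smul]
        rw [hzw, Finset.sum_smul, sub_add_cancel]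
    simpa using LinearMap.congr_fun h X
  rw [hdec]
  refine EMem.add hT.skew (EMem.sum hT.skew hpp _ fun j => ?_) (hC _ ?_)
  · exact hT.eMem_perp hMI hH hu hu0 hfull hw hw0 _ (by
      rw [sub_left hg₂, hg₂.smul_left, hz₀w, mul_one, sub_self])
  · rw [hT.form_right] at hX
    exact (mul_eq_zero.mp hX).resolve_left hT.c_ne

/-- All transvections occur. -/
lemma hasT_of_full : HasT hT.skew M := by
  intro X hX t ht
  have hg := hT.skew₁
  have hg₂ := hT.skew₂
  have hp := hT.pos₁
  have hp₂ := hT.pos₂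
  by_cases hX0 : X = 0
  · rw [show T hT.skew X t hX = 1 from gl_ext fun z => by simp [ap_T hT.skew, hX0]]
    exact one_mem M
  suffices h : FullAt hT.skew M X from h hX t ht
  obtain ⟨v, w, hv, hv0, hvfull, hw, hw0, hne⟩ : ∃ v w, f₁ v v = 0 ∧ v ≠ 0 ∧
      hT.FullSlice M v ∧ f₂ w w = 0 ∧ w ≠ 0 ∧ f X (pt e P v w) ≠ 0 := by
    by_contra hc
    push Not at hc
    have hall : ∀ v, f₁ v v = 0 → v ≠ 0 → hT.FullSlice M v → ∀ z, f₂ z z = 0 →
        f X (pt e P v z) = 0 := by
      intro v h1 h2 h3 z hz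
      by_cases hz0 : z = 0
      · rw [hz0, pt_zero_right, zero_right hT.skew]
      · exact hc v z h1 h2 h3 hz hz0
    have hall' : ∀ a z, f₂ z z = 0 → f X (pt e P a z) = 0 := by
      have hiso : ∀ x, f₁ x x = 0 → f₁ u x ≠ 0 → ∀ z, f₂ z z = 0 → f X (pt e P x z) = 0 := by
        intro x hx hux z hz
        have hτ := T_mem hg hx (c := 1) (map_one σ)
        have hv := hT.fullSlice_ap hMI hH hfull hτ
        rw [ap_T hg, one_mul] at hv
        have h1 := hall _ (by
          simp only [hg.add_left, add_right hg, hg.smul_left, smul_right hg, hu, hx, hg.skew x u]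
          ring) (fun h0 => hu0 (by
            have h2 := congrArg (fun y => f₁ y x) h0
            simp [hg.add_left, hg.smul_left, hx, zero_left hg, hux] at h2)) hv z hz
        rw [pt_add_left, pt_smul_left, add_right hT.skew, smul_right hT.skew,
          hall u hu hu0 hfull z hz, zero_add] at h1
        exact (mul_eq_zero.mp h1).resolve_left ((map_ne_zero_iff σ σ.injective).mpr hux)
      intro a z hz
      obtain ⟨p, hp'⟩ := exists_one hg hu0
      obtain ⟨l, hl⟩ := exists_isotropic_shift hg hu (by rw [hp']; exact one_ne_zero)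
      set v := p + l • u with hvdef
      have hvu : f₁ v u = 1 := by
        rw [hvdef, hg.add_left, hg.smul_left, hp', hu, mul_zero, add_zero]
      have huv : f₁ u v = -1 := by rw [hg.skew u v, hvu, map_one]
      set a₀ := a - (f₁ a u) • v + (f₁ a v) • u with ha₀
      have ha₀u : f₁ a₀ u = 0 := by
        rw [ha₀, hg.add_left, sub_left hg, hg.smul_left, hg.smul_left, hu, hvu]; ring
      have ha₀v : f₁ a₀ v = 0 := by
        rw [ha₀, hg.add_left, sub_left hg, hg.smul_left, hg.smul_left, hl, huv]; ring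
      obtain ⟨b, hb⟩ := exists_sub_eq hg (s := f₁ a₀ a₀) (skew_self hg _)
      have hx0 : f₁ (v + a₀ + b • u) (v + a₀ + b • u) = 0 := by
        simp only [hg.add_left, add_right hg, hg.smul_left, smul_right hg, hu, hl, hvu, huv,
          ha₀u, ha₀v, (eq_zero_comm hg).mp ha₀u, (eq_zero_comm hg).mp ha₀v]
        linear_combination -hb
      have h1 := hiso _ hx0 (by
        rw [add_right hg, add_right hg, smul_right hg, huv, (eq_zero_comm hg).mp ha₀u, hu]
        simp) z hz
      have h2 := hiso v hl (by rw [huv]; exact neg_ne_zero.mpr one_ne_zero) z hz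
      have h3 := hall u hu hu0 hfull z hz
      have ha' : a = a₀ + (f₁ a u) • v - (f₁ a v) • u := by rw [ha₀]; module
      have h4 : f X (pt e P a₀ z) = 0 := by
        simpa [pt_add_left, pt_smul_left, add_right hT.skew, smul_right hT.skew, h2, h3] using h1
      rw [ha', pt_sub_left, pt_add_left, pt_smul_left, pt_smul_left, sub_right hT.skew,
        add_right hT.skew, smul_right hT.skew, smul_right hT.skew, h2, h3, h4]
      ring
    obtain ⟨w, -, hw0, hw⟩ := exists_isotropic hg₂ (nondeg_perp_bot hg₂)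
      (by rw [finrank_perp_bot hg₂, Fintype.card_fin]; omega)
    obtain ⟨p, hp'⟩ := exists_one hg₂ hw0
    obtain ⟨l, hl⟩ := exists_isotropic_shift hg₂ hw (by rw [hp']; exact one_ne_zero)
    set z₀ := p + l • w
    have hz₀ : f₂ z₀ w = 1 := by
      rw [hg₂.add_left, hg₂.smul_left, hp', hw, mul_zero, add_zero]
    have hzero : ∀ a z, f X (pt e P a z) = 0 := by
      intro a z
      have hz' : f₂ (z - f₂ z w • z₀) w = 0 := by
        rw [sub_left hg₂, hg₂.smul_left, hz₀, mul_one, sub_self]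
      obtain ⟨z₁, z₂, -, -, h3, h4, h5⟩ := exists_isotropic_add_perp hg₂ hT.pos₂ hz'
      rw [show z = z₁ + z₂ + f₂ z w • z₀ by rw [← h5, sub_add_cancel], pt_add_right, pt_add_right,
        pt_smul_right, add_right hT.skew, add_right hT.skew, smul_right hT.skew,
        hall' a _ h3, hall' a _ h4, hall' a _ hl]
      ring
    obtain ⟨Y, hY⟩ := (hT.skew.nondegenerate X hX0).2
    refine hY ?_
    have h : fl hT.skew X = 0 := ext_pt e P fun a z => by
      simp [(eq_zero_comm hT.skew).mp (hzero a z)]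
    have h' := LinearMap.congr_fun h Y
    exact (eq_zero_comm hT.skew).mp (by simpa using h')
  obtain ⟨p₁, hp₁⟩ := exists_one hg hv0
  obtain ⟨l, hl⟩ := exists_isotropic_shift hg hv (by rw [hp₁]; exact one_ne_zero)
  set v₁ := p₁ + l • v
  have hv₁v : f₁ v₁ v = 1 := by rw [hg.add_left, hg.smul_left, hp₁, hv, mul_zero, add_zero]
  have hvv₁ : f₁ v v₁ = -1 := by rw [hg.skew v v₁, hv₁v, map_one]
  have hτ := T_mem hg hl (c := 1) (map_one σ)
  have hv₂ := hT.fullSlice_ap hMI hH hvfull hτ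
  rw [ap_T hg, hvv₁, one_mul] at hv₂
  set v₂ := v + (-1 : F) • v₁
  have hv₂v : f₁ v₂ v = -1 := by rw [hg.add_left, hg.smul_left, hv, hv₁v]; ring
  obtain ⟨p₂, hp₂'⟩ := exists_one hg₂ hw0
  obtain ⟨m, hm⟩ := exists_isotropic_shift hg₂ hw (by rw [hp₂']; exact one_ne_zero)
  set w₂ := (-c⁻¹) • (p₂ + m • w)
  have hw₂ : f₂ w₂ w = -c⁻¹ := by
    rw [hg₂.smul_left, hg₂.add_left, hg₂.smul_left, hp₂', hw, mul_zero, add_zero, mul_one]
  have hw₂0 : f₂ w₂ w₂ = 0 := isotropic_smul hg₂ hm _
  set p := pt e P v w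
  set q := pt e P v₂ w₂
  have hqp : f q p = 1 := by rw [hT.form_pt, hv₂v, hw₂]; field_simp [hT.c_ne]
  set X' := (f X p)⁻¹ • X
  have hX'p : f X' p = 1 := by rw [hT.skew.smul_left, inv_mul_cancel₀ hne]
  have hX' : f X' X' = 0 := isotropic_smul hT.skew hX _
  obtain ⟨hvu, t', ht', hmove⟩ := exists_E_move hT.skew (u := p) (w := q) (y := X')
    (hT.isotropic_pt v hw) hqp hX'p (by rw [hX', hT.isotropic_pt v₂ hw₂0])
  have hE := EMem.all_mem hT.skew (hT.eMem_all hMI hH hv hv0 hvfull hw hw0 hvu) (hvfull w hw)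
    (hT.isotropic_pt v hw) hvu ht'
  have h := FullAt.conj hT.skew (hv₂ w₂ hw₂0) hE (hMI hE)
  rw [hmove] at h
  have := FullAt.smul hT.skew h (f X p)
  rwa [smul_smul, mul_inv_cancel₀ hne, one_smul] at this

omit hu hu0 hfull in
/-- A transvection with pure centre forces the special unitary group. -/
theorem le_of_root {u : Fin n₁ → F} {w : Fin n₂ → F} (hu : f₁ u u = 0) (hu0 : u ≠ 0)
    (hw : f₂ w w = 0) (hw0 : w ≠ 0) (h : hT.HasRootAt M (pt e P u w)) :
    isom f ⊓ Cfsg.Geo.specialLinear ι F ≤ M := by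
  have hcard := Fintype.card_congr e
  rw [Fintype.card_prod, Fintype.card_fin, Fintype.card_fin] at hcard
  have hp₁ := hT.pos₁
  have hp₂ := hT.pos₂
  refine le_of_hasT hT.skew ?_
    (hT.hasT_of_full hMI hH hu hu0 (hT.fullSlice_of_root hMI hH hw hw0 h))
  rw [hcard]
  nlinarith

end HTensor

end CfsgLib.Geometric.Unitary
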