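import Cfsg.Agent.Lib.Geometric.UnitaryTensorMax.Basic
import Cfsg.Agent.Lib.Geometric.LinearTensorUnip

/-!
The central elements of the radical of a slice stabiliser in an overgroup of the stabiliser of a
unitary tensor product: a non-scalar one yields a transvection with a pure centre.
-/

namespace CfsgLib.Geometric.Unitary

open Matrix Tensor

variable {ι : Type} [Fintype ι] [DecidableEq ι] {F : Type*} [Field F]

section Form

variable {κ : Type} [Fintype κ] [DecidableEq κ] {σ : F ≃+* F}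
  {g : (κ → F) → (κ → F) → F} (hg : IsSkewForm σ g)
include hg

/-- The map `x ↦ g(x, y) u - g(x, u) y`. -/
def skewPairMap (hg : IsSkewForm σ g) (u y : κ → F) : (κ → F) →ₗ[F] (κ → F) :=
  (fl hg y).smulRight u - (fl hg u).smulRight y

lemma skewPairMap_add (u y y' : κ → F) :
    skewPairMap hg u (y + y') = skewPairMap hg u y + skewPairMap hg u y' := by
  refine LinearMap.ext fun x => ?_
  simp [skewPairMap, add_right hg]
  module

lemma skewPairMap_self (u : κ → F) (t : F) :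
    skewPairMap hg u (t • u) = (σ t - t) • (fl hg u).smulRight u := by
  refine LinearMap.ext fun x => ?_
  simp [skewPairMap, smul_right hg]
  module

/-- Conjugating by an isometry fixing `u` moves `y`. -/
lemma conj_skewPairMap {h : GL κ F} (hh : h ∈ isom g) {u : κ → F} (hu : ap h u = u) (y : κ → F) :
    (apEquiv h).toLinearMap ∘ₗ skewPairMap hg u y ∘ₗ (apEquiv h⁻¹).toLinearMap =
      skewPairMap hg u (ap h y) := by
  have key : ∀ x z, g (ap h⁻¹ x) z = g x (ap h z) := fun x z => by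
    rw [← mem_isom_iff.mp hh (ap h⁻¹ x) z, ap_ap_inv]
  refine LinearMap.ext fun x => ?_
  simp [skewPairMap, key, hu, ap_sub, ap_smul]

lemma conj_smulRight {h : GL κ F} (hh : h ∈ isom g) {u : κ → F} (hu : ap h u = u) :
    (apEquiv h).toLinearMap ∘ₗ (fl hg u).smulRight u ∘ₗ (apEquiv h⁻¹).toLinearMap =
      (fl hg u).smulRight u := by
  refine LinearMap.ext fun x => ?_
  have := mem_isom_iff.mp hh (ap h⁻¹ x) u
  rw [ap_ap_inv, hu] at this
  simp [← this, ap_smul, hu]

/-- A self-adjoint map for which every isotropic vector is an eigenvector is scalar. -/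
lemma exists_scalar_of_isotropic [Finite F] (h2 : 2 ≤ Fintype.card κ)
    {A : (κ → F) →ₗ[F] (κ → F)} (hA : ∀ x y, g (A x) y = g x (A y))
    (h : ∀ u, g u u = 0 → ∃ t : F, A u = t • u) : ∃ t : F, ∀ x, A x = t • x := by
  obtain ⟨u, -, hu0, hu⟩ := exists_isotropic hg (nondeg_perp_bot hg)
    (by rw [finrank_perp_bot hg]; exact h2)
  obtain ⟨p, hp⟩ := exists_one hg hu0
  obtain ⟨l, hl⟩ := exists_isotropic_shift hg hu (by rw [hp]; exact one_ne_zero)
  set v := p + l • u with hvdef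
  have hvu : g v u = 1 := by rw [hvdef, hg.add_left, hg.smul_left, hp, hu, mul_zero, add_zero]
  have huv : g u v = -1 := by rw [hg.skew u v, hvu, map_one]
  obtain ⟨κ₀, hκ⟩ := h u hu
  obtain ⟨μ, hμ⟩ := h v hl
  obtain ⟨ρ, hρ⟩ := h (u + v) (by
    rw [hg.add_left, add_right hg u u v, add_right hg v u v, hu, hl, huv, hvu]; ring)
  rw [map_add, hκ, hμ] at hρ
  have e1 := congrArg (fun x => g x u) hρ
  have e2 := congrArg (fun x => g x v) hρ
  simp only [hg.add_left, hg.smul_left, hu, hl, huv, hvu] at e1 e2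
  have hμκ : μ = κ₀ := by linear_combination e1 + e2
  have e3 := hA u v
  rw [hκ, hμ, hg.smul_left, smul_right hg, huv, hμκ] at e3
  have hκσ : σ κ₀ = κ₀ := by linear_combination e3
  refine ⟨κ₀, fun y => ?_⟩
  set y₀ := y - (g y u) • v + (g y v) • u with hy₀
  have hy₀u : g y₀ u = 0 := by
    rw [hy₀, hg.add_left, sub_left hg, hg.smul_left, hg.smul_left, hu, hvu]; ring
  have hy₀v : g y₀ v = 0 := by
    rw [hy₀, hg.add_left, sub_left hg, hg.smul_left, hg.smul_left, hl, huv]; ring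
  obtain ⟨b, hb⟩ := exists_sub_eq hg (s := g y₀ y₀) (skew_self hg _)
  set v' := v + y₀ + b • u with hv'
  have hv'u : g v' u = 1 := by
    rw [hv', hg.add_left, hg.add_left, hg.smul_left, hvu, hy₀u, hu]; ring
  have hv'0 : g v' v' = 0 := by
    simp only [hv', hg.add_left, add_right hg, hg.smul_left, smul_right hg, hu, hl, hvu, huv,
      hy₀u, hy₀v, (eq_zero_comm hg).mp hy₀u, (eq_zero_comm hg).mp hy₀v]
    linear_combination -hb
  obtain ⟨ρ', hρ'⟩ := h v' hv'0
  have e4 := hA v' u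
  rw [hρ', hg.smul_left, hκ, smul_right hg, hv'u, hκσ, mul_one, mul_one] at e4
  have hy' : y = v' + (g y u - 1) • v - (g y v + b) • u := by
    rw [hv', hy₀]; module
  rw [hy', map_sub, map_add, map_smul, map_smul, hρ', hμ, hκ, e4, hμκ]
  module

end Form

namespace HTensor

variable {σ : F ≃+* F} {f : (ι → F) → (ι → F) → F} {n₁ n₂ : ℕ} {e : ι ≃ Fin n₁ × Fin n₂}
  {P : GL ι F} {f₁ : (Fin n₁ → F) → (Fin n₁ → F) → F} {f₂ : (Fin n₂ → F) → (Fin n₂ → F) → F}
  {c : F} (hT : HTensor σ f e P f₁ f₂ c) {M : Subgroup (GL ι F)}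

/-- An element of `M` adding `A` of the contraction at `w` to the slice of `w`. -/
def Cen (hT : HTensor σ f e P f₁ f₂ c) (M : Subgroup (GL ι F)) (w : Fin n₂ → F)
    (A : (Fin n₁ → F) →ₗ[F] (Fin n₁ → F)) : Prop :=
  ∃ k ∈ M, ∀ X, ap k X = X + pt e P (A (hT.cc w X)) w

/-- `M` holds a transvection with centre `p`. -/
def HasRootAt (hT : HTensor σ f e P f₁ f₂ c) (M : Subgroup (GL ι F)) (p : ι → F) : Prop :=
  ∃ (hp : f p p = 0) (t : F), σ t = t ∧ t ≠ 0 ∧ T hT.skew p t hp ∈ M

include hT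

variable {w : Fin n₂ → F} {A B : (Fin n₁ → F) →ₗ[F] (Fin n₁ → F)}

lemma Cen.congr (h : hT.Cen M w A) (hAB : A = B) : hT.Cen M w B := hAB ▸ h

lemma Cen.zero : hT.Cen M w 0 :=
  ⟨1, one_mem M, fun X => by simp [pt_zero_left]⟩

variable (hw : f₂ w w = 0)
include hw

lemma Cen.add (h : hT.Cen M w A) (h' : hT.Cen M w B) : hT.Cen M w (A + B) := by
  obtain ⟨k, hk, hkx⟩ := h
  obtain ⟨k', hk', hkx'⟩ := h'
  refine ⟨k * k', mul_mem hk hk', fun X => ?_⟩
  rw [ap_mul, hkx', hkx, map_add, cc_pt, hw, zero_smul, add_zero, LinearMap.add_apply,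
    pt_add_left]
  abel

lemma Cen.neg (h : hT.Cen M w A) : hT.Cen M w (-A) := by
  obtain ⟨k, hk, hkx⟩ := h
  refine ⟨k⁻¹, inv_mem hk, fun X => ap_injective k ?_⟩
  rw [ap_ap_inv, hkx, map_add, cc_pt, hw, zero_smul, add_zero, LinearMap.neg_apply,
    ← ptl_apply e P w (-_), map_neg, ptl_apply]
  abel

lemma Cen.sub (h : hT.Cen M w A) (h' : hT.Cen M w B) : hT.Cen M w (A - B) := by
  rw [sub_eq_add_neg]
  exact Cen.add hT hw h (Cen.neg hT hw h')

/-- The maps occurring are self-adjoint. -/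
lemma Cen.selfAdjoint (hMI : M ≤ isom f) (hw0 : w ≠ 0) (h : hT.Cen M w A)
    (x y : Fin n₁ → F) : f₁ (A x) y = f₁ x (A y) := by
  obtain ⟨k, hk, hkx⟩ := h
  obtain ⟨z, hz⟩ := exists_one hT.skew₂ hw0
  have h1 := mem_isom_iff.mp (hMI hk) (pt e P x z) (pt e P y z)
  rw [hkx, hkx, cc_pt, cc_pt, hz, one_smul, one_smul] at h1
  simp only [hT.skew.add_left, add_right hT.skew, hT.form_pt, hz, hw,
    show f₂ w z = -1 by rw [hT.skew₂.skew, hz, map_one]] at h1
  apply mul_left_cancel₀ hT.c_ne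
  linear_combination -h1

variable [Finite F]
  (hH : Cfsg.Geo.tensorProductSubgroup n₁ n₂ e P ⊓ (isom f ⊓ Cfsg.Geo.specialLinear ι F) ≤ M)
include hH

lemma Cen.conj (h : hT.Cen M w A) {a : GL (Fin n₁) F}
    (ha : a ∈ isom f₁ ⊓ Cfsg.Geo.specialLinear (Fin n₁) F) :
    hT.Cen M w ((apEquiv a).toLinearMap ∘ₗ A ∘ₗ (apEquiv a⁻¹).toLinearMap) := by
  obtain ⟨k, hk, hkx⟩ := h
  have hkr := hH (hT.kron_mem ha (one_mem _))
  refine ⟨kron e P a 1 * k * (kron e P a 1)⁻¹, mul_mem (mul_mem hkr hk) (inv_mem hkr),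
    fun X => ?_⟩
  have h1 : ((hT.cc w).comp (apEquiv (kron e P a 1)⁻¹).toLinearMap) =
      (apEquiv a⁻¹).toLinearMap.comp (hT.cc w) := ext_pt e P fun p r => by
    simp [kron_inv, ap_smul]
  have h2 : hT.cc w (ap (kron e P a 1)⁻¹ X) = ap a⁻¹ (hT.cc w X) := LinearMap.congr_fun h1 X
  rw [ap_mul, ap_mul, hkx, ap_add, ap_ap_inv, ap_kron, ap_one, h2]
  rfl

lemma exists_scale (hw0 : w ≠ 0) {l : F} (hl : l ≠ 0) :
    ∃ b ∈ isom f₂ ⊓ Cfsg.Geo.specialLinear (Fin n₂) F, ap b w = l • w := by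
  have hp := hT.pos₂
  obtain ⟨b, -, hb, -, hbw⟩ := exists_move hT.skew₂ (M := ⊤) (fun _ _ _ _ => Subgroup.mem_top _)
    (by rw [Fintype.card_fin]; omega) (U := ⊥) (nondeg_perp_bot hT.skew₂)
    (by rw [finrank_perp_bot hT.skew₂, Fintype.card_fin]; omega) (x := w) (y := l • w)
    (mem_perp_bot hT.skew₂ _) (mem_perp_bot hT.skew₂ _) hw
    (isotropic_smul hT.skew₂ hw l) hw0 (smul_ne_zero hl hw0)
  exact ⟨b, hb, hbw⟩

lemma Cen.smul (hw0 : w ≠ 0) (h : hT.Cen M w A) {t : F} (ht : σ t = t) :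
    hT.Cen M w (t • A) := by
  by_cases ht0 : t = 0
  · rw [ht0, zero_smul]; exact Cen.zero hT
  obtain ⟨l, hl⟩ := exists_norm hT.skew ht
  have hl0 : l ≠ 0 := fun h0 => ht0 (by rw [← hl, h0, zero_mul])
  obtain ⟨b, hb, hbw⟩ := hT.exists_scale hw hH hw0 hl0
  obtain ⟨k, hk, hkx⟩ := h
  have hkr := hH (hT.kron_mem hT.one_mem₁ hb)
  refine ⟨kron e P 1 b * k * (kron e P 1 b)⁻¹, mul_mem (mul_mem hkr hk) (inv_mem hkr),
    fun X => ?_⟩
  have h1 : ((hT.cc w).comp (apEquiv (kron e P (1 : GL (Fin n₁) F) b)⁻¹).toLinearMap) =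
      hT.cc (ap b w) := ext_pt e P fun p r => by
    have := mem_isom_iff.mp hb.1 (ap b⁻¹ r) w
    rw [ap_ap_inv] at this
    simp [kron_inv, this]
  have h2 : hT.cc w (ap (kron e P 1 b)⁻¹ X) = hT.cc (ap b w) X := LinearMap.congr_fun h1 X
  rw [ap_mul, ap_mul, hkx, ap_add, ap_ap_inv, ap_kron, ap_one, hbw, h2, hbw, hT.cc_smul, map_smul,
    pt_smul_left, pt_smul_right, LinearMap.smul_apply, pt_smul_left, smul_smul, mul_comm (σ l),
    hl]

omit [Finite F] hH in
/-- A rank one central element is a transvection. -/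
lemma root_of_rankOne (hMI : M ≤ isom f) (hw0 : w ≠ 0) {u : Fin n₁ → F} (hu0 : u ≠ 0)
    {α : F} (hα : α ≠ 0) (h : hT.Cen M w (α • (fl hT.skew₁ u).smulRight u)) :
    hT.HasRootAt M (pt e P u w) := by
  have hp : f (pt e P u w) (pt e P u w) = 0 := by rw [hT.form_pt, hw, mul_zero, mul_zero]
  obtain ⟨a, ha⟩ := exists_one hT.skew₁ hu0
  have hs := Cen.selfAdjoint hT hw hMI hw0 h a a
  simp only [LinearMap.smul_apply, LinearMap.smulRight_apply, fl_apply, ha, one_smul,
    hT.skew₁.smul_left, smul_right hT.skew₁, map_one,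
    show f₁ u a = -1 by rw [hT.skew₁.skew, ha, map_one]] at hs
  have hσα : σ α = -α := by linear_combination -hs
  obtain ⟨k, hk, hkx⟩ := h
  refine ⟨hp, α / c, by rw [map_div₀, hσα, hT.σc, neg_div_neg_eq], div_ne_zero hα hT.c_ne, ?_⟩
  convert hk using 1
  refine gl_ext fun X => ?_
  rw [ap_T hT.skew, hkx, hT.form_right, LinearMap.smul_apply, LinearMap.smulRight_apply, fl_apply,
    pt_smul_left, pt_smul_left, smul_smul, ← mul_assoc, div_mul_cancel₀ _ hT.c_ne]

/-- A non-scalar central element yields a transvection with pure centre. -/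
theorem exists_root (hMI : M ≤ isom f) (hw0 : w ≠ 0)
    (hq : 3 ≤ n₁ ∨ ∃ t : F, σ t = t ∧ t ≠ 0 ∧ t ≠ 1)
    (h : hT.Cen M w A) (hA : ∀ t : F, ∃ x, A x ≠ t • x) :
    ∃ u, u ≠ 0 ∧ f₁ u u = 0 ∧ hT.HasRootAt M (pt e P u w) := by
  have hp := hT.pos₁
  have hg := hT.skew₁
  have hsa := Cen.selfAdjoint hT hw hMI hw0 h
  obtain ⟨u, hu, hne⟩ : ∃ u, f₁ u u = 0 ∧ ∀ t : F, A u ≠ t • u := by
    by_contra hc
    push Not at hc
    obtain ⟨t, ht⟩ := exists_scalar_of_isotropic hg (by rw [Fintype.card_fin]; omega) hsa hc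
    obtain ⟨x, hx⟩ := hA t
    exact hx (ht x)
  have hu0 : u ≠ 0 := fun h0 => hne 0 (by rw [h0, map_zero, smul_zero])
  refine ⟨u, hu0, hu, ?_⟩
  set y := A u with hy
  set α := f₁ y u with hα
  set Pu := (fl hg u).smulRight u with hPu
  have hΔ : ∀ t : F, σ t = t →
      hT.Cen M w (t • skewPairMap hg u y - (t * t * α) • Pu) := fun t ht => by
    have h1 := Cen.sub hT hw (Cen.conj hT hw hH h (T_mem hg hu ht)) h
    refine Cen.congr hT h1 (LinearMap.ext fun x => ?_)
    have hi : ap (T hg u t hu)⁻¹ x = x - (t * f₁ x u) • u := ap_injective (T hg u t hu) (by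
      rw [ap_ap_inv, ap_T hg, sub_left hg, hg.smul_left, hu]; module)
    simp only [LinearMap.sub_apply, LinearMap.comp_apply, LinearEquiv.coe_coe, apEquiv_apply, hi,
      map_sub, map_smul, ap_T hg, sub_left hg, hg.smul_left, hsa x u, ← hy, ← hα,
      LinearMap.smul_apply, skewPairMap, hPu, LinearMap.smulRight_apply, fl_apply]
    module
  have h1 := hΔ 1 (map_one σ)
  rw [one_smul, one_mul, one_mul] at h1
  by_cases hn : 3 ≤ n₁
  swap
  · obtain ⟨t, ht, ht0, ht1⟩ := hq.resolve_left hn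
    have hα0 : α ≠ 0 := by
      intro h0
      have hker : LinearMap.ker (fl hg u) = Submodule.span F {u} := by
        refine (Submodule.eq_of_le_of_finrank_le
          ((Submodule.span_singleton_le_iff_mem _ _).mpr (by simpa using hu)) ?_).symm
        have hlt : LinearMap.ker (fl hg u) ≠ ⊤ := fun htop => by
          obtain ⟨z, hz⟩ := exists_one hg hu0
          have : z ∈ LinearMap.ker (fl hg u) := htop ▸ Submodule.mem_top
          simp [hz] at this
        have := Submodule.finrank_lt hlt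
        rw [Module.finrank_fin_fun] at this
        rw [finrank_span_singleton hu0]
        omega
      have hmem : y ∈ LinearMap.ker (fl hg u) := by simpa using h0
      rw [hker, Submodule.mem_span_singleton] at hmem
      obtain ⟨s, hs⟩ := hmem
      exact hne s hs.symm
    have h2 := Cen.sub hT hw (Cen.smul hT hw hH hw0 h1 ht) (hΔ t ht)
    refine hT.root_of_rankOne hw hMI hw0 hu0 (α := (t * t - t) * α) ?_
      (Cen.congr hT h2 (by rw [← hPu]; module))
    refine mul_ne_zero ?_ hα0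
    rw [show t * t - t = t * (t - 1) by ring]
    exact mul_ne_zero ht0 (sub_ne_zero.mpr ht1)
  -- reduce to a pair of orthogonal vectors
  obtain ⟨y', hy'u, hy'n, h2⟩ : ∃ y', f₁ y' u = 0 ∧ y' ∉ Submodule.span F {u} ∧
      hT.Cen M w (skewPairMap hg u y') := by
    by_cases hα0 : α = 0
    · rw [hα0, zero_smul, sub_zero] at h1
      exact ⟨y, hα0, fun hm => by
        obtain ⟨s, hs⟩ := Submodule.mem_span_singleton.mp hm
        exact hne s hs.symm, h1⟩
    obtain ⟨v, hvu, hvn⟩ : ∃ v, f₁ v u = 0 ∧ v ∉ Submodule.span F {u} := by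
      by_contra hc
      push Not at hc
      have hle : LinearMap.ker (fl hg u) ≤ Submodule.span F {u} := fun v hv =>
        hc v (by simpa using hv)
      have h3 := Submodule.finrank_mono hle
      have h4 := (fl hg u).finrank_range_add_finrank_ker
      have h5 := Submodule.finrank_le (LinearMap.range (fl hg u))
      rw [finrank_span_singleton hu0] at h3
      rw [Module.finrank_self] at h5
      rw [Module.finrank_fin_fun] at h4
      omega
    obtain ⟨s, hs⟩ := exists_sub_eq hg (s := f₁ v v) (skew_self hg v)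
    set E₀ := E hg u v s hu hvu with hE
    have hE0 := E_mem hg (u := u) (v := v) (hu := hu) (hvu := hvu) hs
    have hEu : ap E₀ u = u := by
      simp [hE, ap_E hg, hu, (eq_zero_comm hg).mp hvu]
    have h3 := Cen.sub hT hw (Cen.conj hT hw hH h1 hE0) h1
    set r := f₁ y v + s * α
    refine ⟨α • v + r • u, by rw [hg.add_left, hg.smul_left, hg.smul_left, hvu, hu]; ring,
      fun hm => hvn ?_, Cen.congr hT h3 ?_⟩
    · have hm' := Submodule.sub_mem _ hm
        (Submodule.smul_mem _ r (Submodule.mem_span_singleton_self u))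
      rw [add_sub_cancel_right] at hm'
      simpa [smul_smul, inv_mul_cancel₀ hα0] using Submodule.smul_mem _ α⁻¹ hm'
    · have hEy : ap E₀ y = y + (α • v + r • u) := by
        rw [hE, ap_E hg]; module
      refine LinearMap.ext fun x => ?_
      have e1 := LinearMap.congr_fun (conj_skewPairMap hg hE0.1 hEu y) x
      have e2 := LinearMap.congr_fun (conj_smulRight hg hE0.1 hEu) x
      rw [hEy, skewPairMap_add hg] at e1
      simp only [LinearMap.comp_apply, LinearEquiv.coe_coe, apEquiv_apply, LinearMap.add_apply,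
        hE] at e1 e2
      simp only [LinearMap.sub_apply, LinearMap.comp_apply, LinearEquiv.coe_coe, apEquiv_apply,
        LinearMap.smul_apply, hPu, ap_sub, ap_smul, e1, e2]
      abel
  obtain ⟨ω, hω⟩ : ∃ ω, σ ω ≠ ω := by
    by_contra hc
    push Not at hc
    exact hg.ne_refl (RingEquiv.ext hc)
  obtain ⟨p, hp', hyp⟩ := exists_perp_ne hg hy'n
  set v := σ (ω / f₁ y' p) • p with hv
  have hvu : f₁ v u = 0 := by rw [hv, hg.smul_left, (mem_perp_span hg).mp hp', mul_zero]
  have hyv : f₁ y' v = ω := by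
    rw [hv, smul_right hg, hg.involutive, div_mul_cancel₀ _ hyp]
  obtain ⟨s, hs⟩ := exists_sub_eq hg (s := f₁ v v) (skew_self hg v)
  set E₀ := E hg u v s hu hvu with hE
  have hE0 := E_mem hg (u := u) (v := v) (hu := hu) (hvu := hvu) hs
  have hEu : ap E₀ u = u := by simp [hE, ap_E hg, hu, (eq_zero_comm hg).mp hvu]
  have h3 := Cen.sub hT hw (Cen.conj hT hw hH h2 hE0) h2
  refine hT.root_of_rankOne hw hMI hw0 hu0 (α := σ ω - ω) (sub_ne_zero.mpr hω)
    (Cen.congr hT h3 ?_)
  have hEy : ap E₀ y' = y' + ω • u := by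
    rw [hE, ap_E hg, hy'u, hyv]; module
  rw [conj_skewPairMap hg hE0.1 hEu, hEy, skewPairMap_add hg, skewPairMap_self hg,
    add_sub_cancel_left]

end HTensor

end CfsgLib.Geometric.Unitary
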