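import Mathlib

/-!
Zeros of determinants of families of matrices with a norm condition: a Chevalley-Warning argument
over the fixed field of an involution of a finite field.
-/

namespace CfsgLib.Geometric.Unitary

open MvPolynomial

variable {F : Type*} [Field F]

lemma totalDegree_det_le {κ : Type*} {E d : ℕ} (M : Matrix (Fin E) (Fin E) (MvPolynomial κ F))
    (h : ∀ i j, (M i j).totalDegree ≤ d) : M.det.totalDegree ≤ E * d := by
  rw [Matrix.det_apply']
  refine totalDegree_finsetSum_le fun π _ => ?_
  refine (totalDegree_mul _ _).trans ?_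
  have h1 : (((Equiv.Perm.sign π : ℤ) : MvPolynomial κ F)).totalDegree = 0 := by
    rw [← map_intCast (MvPolynomial.C (σ := κ) (R := F))]
    exact totalDegree_C _
  rw [h1, zero_add]
  refine (totalDegree_finset_prod _ _).trans ((Finset.sum_le_sum fun i _ => h _ i).trans ?_)
  simp

/-- A common zero with fixed coordinates of a fixed-valued determinant and a fixed-valued
polynomial of bounded degree. -/
theorem exists_fixed_zero [Finite F] (s : F →+* F) (θ : F) (hθ : θ + s θ = 1)
    (hs : ∀ x, s (s x) = x) {κ : Type} [Fintype κ] [DecidableEq κ] {E d : ℕ}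
    (M : Matrix (Fin E) (Fin E) (MvPolynomial κ F)) (q : MvPolynomial κ F)
    {Q : ℕ} (hM : ∀ i j, (M i j).totalDegree ≤ d) (hq : q.totalDegree ≤ Q)
    (hM0 : ∀ i j, eval (0 : κ → F) (M i j) = 0) (hq0 : eval (0 : κ → F) q = 0) (hE : 0 < E)
    (hfix : ∀ x : κ → F, (∀ l, s (x l) = x l) →
      s (eval x M.det) = eval x M.det ∧ s (eval x q) = eval x q)
    (hcard : E * d + Q < Fintype.card κ) :
    ∃ x : κ → F, x ≠ 0 ∧ (∀ l, s (x l) = x l) ∧ (M.map (eval x)).det = 0 ∧ eval x q = 0 := by
  classical
  let K : Subfield F := RingHom.eqLocusField s (RingHom.id F)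
  letI : Fintype K := Fintype.ofFinite K
  let t : F → K := fun a => ⟨θ * a + s (θ * a), by
    change s (θ * a + s (θ * a)) = θ * a + s (θ * a)
    rw [map_add, hs, add_comm]⟩
  let down : MvPolynomial κ F → MvPolynomial κ K := fun P =>
    ∑ m ∈ P.support, monomial m (t (coeff m P))
  have hdeg : ∀ P, (down P).totalDegree ≤ P.totalDegree := fun P =>
    totalDegree_finsetSum_le fun m hm => (totalDegree_monomial_le _ _).trans (le_totalDegree hm)
  have heval : ∀ (P : MvPolynomial κ F) (x : κ → K),
      s (eval (fun l => (x l : F)) P) = eval (fun l => (x l : F)) P →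
      (eval x (down P) : F) = eval (fun l => (x l : F)) P := by
    intro P x hP
    set v := eval (fun l => (x l : F)) P with hv
    have hx : ∀ m : κ →₀ ℕ, s (∏ l ∈ m.support, (x l : F) ^ m l) =
        ∏ l ∈ m.support, (x l : F) ^ m l := fun m => by
      rw [map_prod]
      exact Finset.prod_congr rfl fun l _ => by rw [map_pow, (x l).2]; rfl
    have h1 : (eval x (down P) : F) = θ * v + s (θ * v) := by
      simp only [hv, down, map_sum, eval_monomial, AddSubmonoidClass.coe_finsetSum]
      conv_rhs => rw [MvPolynomial.eval_eq]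
      rw [Finset.mul_sum, map_sum, ← Finset.sum_add_distrib]
      refine Finset.sum_congr rfl fun m _ => ?_
      simp only [Finsupp.prod, MulMemClass.coe_mul, SubmonoidClass.coe_finset_prod,
        SubmonoidClass.coe_pow, t, map_mul, hx m]
      ring
    rw [h1, map_mul, hP]
    linear_combination v * hθ
  obtain ⟨p, hp⟩ := CharP.exists K
  have hpp : p.Prime := CharP.char_is_prime K p
  have hsum : (down M.det).totalDegree + (down q).totalDegree < Fintype.card κ :=
    lt_of_le_of_lt (add_le_add ((hdeg _).trans (totalDegree_det_le M hM)) ((hdeg q).trans hq)) hcard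
  have hdvd := char_dvd_card_solutions_of_add_lt p hsum
  have hdet : ∀ x : κ → F, eval x M.det = (M.map (eval x)).det := fun x =>
    RingHom.map_det (eval x) M
  have hzero : eval (fun _ => (0 : F)) M.det = 0 := by
    rw [hdet]
    exact Matrix.det_eq_zero_of_row_eq_zero ⟨0, hE⟩ fun j => hM0 _ j
  have hsfix : ∀ (x : κ → K) l, s (x l : F) = (x l : F) := fun x l => (x l).2
  have h0 : eval (0 : κ → K) (down M.det) = 0 ∧ eval (0 : κ → K) (down q) = 0 := by
    constructor
    · refine Subtype.ext ?_
      rw [heval _ 0 (hfix _ (hsfix 0)).1]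
      exact hzero
    · refine Subtype.ext ?_
      rw [heval _ 0 (hfix _ (hsfix 0)).2]
      exact hq0
  obtain ⟨x, hx⟩ := Fintype.exists_ne_of_one_lt_card
    (α := {x : κ → K // eval x (down M.det) = 0 ∧ eval x (down q) = 0})
    (lt_of_lt_of_le hpp.one_lt (Nat.le_of_dvd (Fintype.card_pos_iff.2 ⟨⟨0, h0⟩⟩) hdvd)) ⟨0, h0⟩
  refine ⟨fun l => (x.1 l : F), fun h => hx (Subtype.ext (funext fun l => Subtype.ext ?_)),
    hsfix x.1, ?_, ?_⟩
  · exact congrFun h l
  · rw [← hdet, ← heval _ x.1 (hfix _ (hsfix x.1)).1, x.2.1]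
    rfl
  · rw [← heval _ x.1 (hfix _ (hsfix x.1)).2, x.2.2]
    rfl

end CfsgLib.Geometric.Unitary
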