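import Cfsg.Agent.Lib.Geometric.UnitaryTensorMax.Pairing

/-!
A conjugate of a factorwise element shifting along a totally isotropic line of the second factor is
factorwise only trivially: such an element commutes with a factorwise transvection, and the
elements commuting with the line element lie in the stabiliser.
-/

namespace CfsgLib.Geometric.Unitary

open Matrix Tensor

variable {ι : Type} [Fintype ι] [DecidableEq ι] {F : Type*} [Field F] {σ : F ≃+* F}
variable {f : (ι → F) → (ι → F) → F} {n₁ n₂ : ℕ} {e : ι ≃ Fin n₁ × Fin n₂}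
  {P : GL ι F} {f₁ : (Fin n₁ → F) → (Fin n₁ → F) → F} {f₂ : (Fin n₂ → F) → (Fin n₂ → F) → F}
  {c : F}

namespace HTensor

variable (hT : HTensor σ f e P f₁ f₂ c) {M : Subgroup (GL ι F)}
include hT

/-- The factors of a factorwise isometry are similitudes with inverse multipliers. -/
lemma exists_multiplier [Finite F] {a : GL (Fin n₁) F} {b : GL (Fin n₂) F}
    (h : kron e P a b ∈ isom f) : ∃ ν : F, ν ≠ 0 ∧
      (∀ r r', f₂ (ap b r) (ap b r') = ν * f₂ r r') ∧
      ∀ x x', ν * f₁ (ap a x) (ap a x') = f₁ x x' := by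
  have hp := hT.pos₁
  have h4 := hT.pos₂
  obtain ⟨ua, hua⟩ := exists_aniso hT.skew₁ (by omega)
  obtain ⟨ya, hya⟩ := exists_aniso hT.skew₂ (by omega)
  have key : ∀ x x' r r', f₁ (ap a x) (ap a x') * f₂ (ap b r) (ap b r') =
      f₁ x x' * f₂ r r' := by
    intro x x' r r'
    have := mem_isom_iff.mp h (pt e P x r) (pt e P x' r')
    rw [ap_kron, ap_kron, hT.form_pt, hT.form_pt] at this
    exact mul_left_cancel₀ hT.c_ne this
  have ha : f₁ (ap a ua) (ap a ua) ≠ 0 := fun h0 => by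
    have := key ua ua ya ya
    rw [h0, zero_mul] at this
    exact mul_ne_zero hua hya this.symm
  have hb : ∀ r r', f₂ (ap b r) (ap b r') =
      f₁ ua ua / f₁ (ap a ua) (ap a ua) * f₂ r r' := fun r r' => by
    rw [div_mul_eq_mul_div, eq_div_iff ha, ← key ua ua r r', mul_comm]
  refine ⟨_, div_ne_zero hua ha, hb, fun x x' => ?_⟩
  have h1 := key x x' ya ya
  rw [hb, ← mul_assoc] at h1
  rw [mul_comm]
  exact mul_right_cancel₀ hya h1

/-- A factorwise similitude with an eigenvector of the right norm commutes with the transvection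
there. -/
lemma kron_comm_T {a : GL (Fin n₁) F} {b : GL (Fin n₂) F} {ν l : F} (hl : l * σ l = ν)
    (hν : ν ≠ 0) (hb : ∀ r r', f₂ (ap b r) (ap b r') = ν * f₂ r r') {z : Fin n₂ → F}
    (hz : f₂ z z = 0) (hbz : ap b z = l • z) :
    kron e P a b * kron e P 1 (T hT.skew₂ z 1 hz) =
      kron e P 1 (T hT.skew₂ z 1 hz) * kron e P a b := by
  refine gl_ext_pt e P fun u r => ?_
  simp only [ap_mul, ap_kron, ap_one, ap_T hT.skew₂, one_mul, ap_add, ap_smul, hbz, smul_smul]
  congr 3
  have h1 := hb r z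
  rw [hbz, smul_right hT.skew₂] at h1
  have hσl : σ l ≠ 0 := fun h0 => hν (by rw [← hl, h0, mul_zero])
  apply mul_left_cancel₀ hσl
  linear_combination -h1 + (f₂ r z) * hl

variable [Finite F] (hM : hT.Small M) (h12 : n₁ < n₂)
include hM h12

/-- An element moving an isotropic slice into the orthogonal of another lies in the stabiliser. -/
lemma mem_of_ortho {g : GL ι F} (hg : g ∈ M) {v v' : Fin n₂ → F} (hv : f₂ v v = 0) (hv0 : v ≠ 0)
    (hv' : f₂ v' v' = 0) (hv'0 : v' ≠ 0)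
    (h : ∀ u u', f (ap g (pt e P u v)) (pt e P u' v') = 0) :
    g ∈ Cfsg.Geo.tensorProductSubgroup n₁ n₂ e P := by
  set t := kron e P (1 : GL (Fin n₁) F) (T hT.skew₂ v 1 hv) with ht
  have hy : g * t * g⁻¹ ∈ M :=
    mul_mem (mul_mem hg (hM.stab_le (hT.kron_T_mem hv (map_one σ)))) (inv_mem hg)
  refine hT.mem_of_conj_T hM h12 hg hv hv0 (map_one σ) one_ne_zero
    (hT.mem_of_slice_map hM hy hv' hv'0 hv' hv'0 fun u' => ?_)
  have hcc : hT.cc v (ap g⁻¹ (pt e P u' v')) = 0 := eq_of_forall hT.skew₁ fun a => by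
    have h1 := hT.form_right (ap g⁻¹ (pt e P u' v')) a v
    rw [← mem_isom_iff.mp (hM.le_isom hg), ap_ap_inv, (eq_zero_comm hT.skew).mp (h a u'), eq_comm,
      mul_eq_zero] at h1
    rw [h1.resolve_left hT.c_ne, zero_left hT.skew₁]
  rw [ap_mul, ap_mul, hT.ap_kron_T, hcc, pt_zero_left, smul_zero, add_zero, ap_ap_inv]
  exact pt_mem_slice e P u' v'

/-- A conjugate of a non-degenerate element at a totally isotropic line is factorwise only
trivially. -/
lemma mem_of_conj_line {g : GL ι F} (hg : g ∈ M) {w v : Fin n₂ → F} (hw : f₂ w w = 0)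
    (hw0 : w ≠ 0) (hvw : f₂ v w = 0) (hvv : f₂ v v = 0) (hv : v ∉ Submodule.span F {w})
    {α k s : F} (hdet : α * σ α - k * s ≠ 0) {x : GL ι F} (hxM : x ∈ M)
    (hx : ∀ X, ap x X = X + pt e P (α • hT.cc w X + k • hT.cc v X) v +
      pt e P (σ α • hT.cc v X + s • hT.cc w X) w)
    (hy : g * x * g⁻¹ ∈ Cfsg.Geo.tensorProductSubgroup n₁ n₂ e P) :
    g ∈ Cfsg.Geo.tensorProductSubgroup n₁ n₂ e P := by
  classical
  have hp := hT.pos₁
  have h4 := hT.pos₂
  have hgI := hM.le_isom hg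
  have hwv : f₂ w v = 0 := (eq_zero_comm hT.skew₂).mp hvw
  set δ : (ι → F) →ₗ[F] (ι → F) := (apEquiv x).toLinearMap - LinearMap.id with hδ
  have hδx : ∀ X, δ X = pt e P (α • hT.cc w X + k • hT.cc v X) v +
      pt e P (σ α • hT.cc v X + s • hT.cc w X) w := fun X => by
    simp only [hδ, LinearMap.sub_apply, LinearEquiv.coe_coe, apEquiv_apply, LinearMap.id_apply,
      hx]
    abel
  have hδδ : ∀ X, δ (δ X) = 0 := fun X => by
    rw [hδx (δ X)]
    simp [hδx, hw, hvw, hwv, hvv, pt_zero_left]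
  obtain ⟨z₀, hz₀⟩ := exists_one hT.skew₂ hw0
  obtain ⟨q, hq, hvq⟩ := exists_perp_ne hT.skew₂ hv
  set z₁ := (f₂ q v)⁻¹ • q with hz₁def
  have hz₁v : f₂ z₁ v = 1 := by
    rw [hz₁def, hT.skew₂.smul_left, inv_mul_cancel₀ (hvq ∘ (eq_zero_comm hT.skew₂).mp)]
  have hz₁w : f₂ z₁ w = 0 := by
    rw [hz₁def, hT.skew₂.smul_left, (mem_perp_span hT.skew₂).mp hq, mul_zero]
  have hsurj : ∀ b : Fin n₁ → F, ∃ X, δ X = pt e P b w := fun b => by
    set A := (-k / (α * σ α - k * s)) • b
    set B := (α / (α * σ α - k * s)) • b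
    refine ⟨pt e P A (z₀ - f₂ z₀ v • z₁) + pt e P B z₁, ?_⟩
    have h₁ : f₂ (z₀ - f₂ z₀ v • z₁) w = 1 := by
      rw [sub_left hT.skew₂, hT.skew₂.smul_left, hz₀, hz₁w, mul_zero, sub_zero]
    have h₂ : f₂ (z₀ - f₂ z₀ v • z₁) v = 0 := by
      rw [sub_left hT.skew₂, hT.skew₂.smul_left, hz₁v, mul_one, sub_self]
    simp only [hδx, map_add, cc_pt, h₁, h₂, hz₁v, hz₁w, zero_smul, one_smul, add_zero, zero_add]
    have e1 : α • A + k • B = 0 := by
      simp only [A, B, smul_smul, ← add_smul]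
      rw [show α * (-k / (α * σ α - k * s)) + k * (α / (α * σ α - k * s)) = 0 by ring, zero_smul]
    have e2 : σ α • B + s • A = b := by
      simp only [A, B, smul_smul, ← add_smul]
      rw [show σ α * (α / (α * σ α - k * s)) + s * (-k / (α * σ α - k * s)) =
        (α * σ α - k * s) / (α * σ α - k * s) by ring, div_self hdet, one_smul]
    rw [e1, e2, pt_zero_left, zero_add]
  -- the centraliser of the line element
  have hcent : ∀ h ∈ M, h * x = x * h → h ∈ Cfsg.Geo.tensorProductSubgroup n₁ n₂ e P := by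
    intro h hh hhx
    refine hT.mem_of_ortho hM h12 hh hw hw0 hw hw0 fun u u' => ?_
    obtain ⟨X, hX⟩ := hsurj u
    have h1 : ap h (δ X) = δ (ap h X) := by
      have := congrArg (fun m => ap m X) hhx
      simp only [ap_mul] at this
      simp [hδ, ap_sub, this]
    rw [← hX, h1, hδx, hT.skew.add_left, hT.form_pt, hT.form_pt, hvw, hw]
    simp
  set y := g * x * g⁻¹ with hydef
  set Δ : (ι → F) →ₗ[F] (ι → F) := (apEquiv y).toLinearMap - LinearMap.id with hΔ
  have hΔg : ∀ X, Δ (ap g X) = ap g (δ X) := fun X => by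
    simp [hΔ, hδ, hydef, ap_mul, ap_inv_ap, ap_sub]
  have hΔΔ : ∀ X, Δ (Δ X) = 0 := fun X => by
    obtain ⟨X, rfl⟩ : ∃ X', ap g X' = X := ⟨_, ap_ap_inv g X⟩
    rw [hΔg, hΔg, hδδ, ap_zero]
  have hΔiso : ∀ X, f (Δ X) (Δ X) = 0 := fun X => by
    obtain ⟨X, rfl⟩ : ∃ X', ap g X' = X := ⟨_, ap_ap_inv g X⟩
    rw [hΔg, mem_isom_iff.mp hgI, hδx]
    simp [hT.skew.add_left, add_right hT.skew, hT.form_pt, hw, hvv, hvw, hwv]
  obtain ⟨a, b, hab⟩ := (mem_iff e P y).mp hy
  have hyk : y = kron e P a b := gl_ext_pt e P fun u r => by rw [hab, ap_kron]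
  have hΔpt : ∀ u r, Δ (pt e P u r) = pt e P (ap a u) (ap b r) - pt e P u r := fun u r => by
    simp [hΔ, hab]
  obtain ⟨ν, hν0, hb, ha⟩ := hT.exists_multiplier (a := a) (b := b)
    (hyk ▸ hM.le_isom (mul_mem (mul_mem hg hxM) (inv_mem hg)))
  obtain ⟨ua, hua⟩ := exists_aniso hT.skew₁ (by omega)
  -- an eigenvector of the second factor
  suffices hex : ∃ (z : Fin n₂ → F) (l : F), z ≠ 0 ∧ f₂ z z = 0 ∧ ap b z = l • z ∧
      l * σ l = ν by
    obtain ⟨z, l, hz0, hz, hbz, hl⟩ := hex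
    set W := kron e P (1 : GL (Fin n₁) F) (T hT.skew₂ z 1 hz) with hW
    have hyW : y * W = W * y := by rw [hyk]; exact hT.kron_comm_T hl hν0 hb hz hbz
    have hkM : g⁻¹ * W * g ∈ M :=
      mul_mem (mul_mem (inv_mem hg) (hM.stab_le (hT.kron_T_mem hz (map_one σ)))) hg
    have hkT := hcent _ hkM (by
      calc g⁻¹ * W * g * x = g⁻¹ * (W * y) * g := by rw [hydef]; group
        _ = g⁻¹ * (y * W) * g := by rw [hyW]
        _ = x * (g⁻¹ * W * g) := by rw [hydef]; group)
    simpa using inv_mem (hT.mem_of_conj_T hM h12 (inv_mem hg) hz hz0 (map_one σ) one_ne_zero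
      (by rwa [inv_inv]))
  by_cases heig : ∀ u, ∃ t : F, (apEquiv a).toLinearMap u = t • u
  · -- a scalar first factor
    obtain ⟨μ, hμ⟩ := exists_scalar heig
    simp only [LinearEquiv.coe_coe, apEquiv_apply] at hμ
    have hμν : ν * (μ * σ μ) = 1 := by
      have h := ha ua ua
      rw [hμ, hT.skew₁.smul_left, smul_right hT.skew₁] at h
      exact mul_right_cancel₀ hua (by linear_combination h)
    have hμ0 : μ ≠ 0 := fun h0 => by simp [h0] at hμν
    have hua0 : ua ≠ 0 := fun h => hua (by rw [h, zero_left hT.skew₁])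
    obtain ⟨r, hr⟩ : ∃ r, μ • ap b r - r ≠ 0 := by
      by_contra hc
      push Not at hc
      have h0 : Δ = 0 := ext_pt e P fun u r => by
        rw [hΔpt, hμ, pt_smul_left, ← pt_smul_right, ← pt_sub_right, hc r, pt_zero_right]
        simp
      obtain ⟨X, hX⟩ := hsurj ua
      have h1 := hΔg X
      rw [h0, LinearMap.zero_apply, hX, ← ap_zero g] at h1
      exact pt_ne_zero e P hua0 hw0 (ap_injective g h1).symm
    set z := μ • ap b r - r with hz
    have hΔz : ∀ u r, Δ (pt e P u r) = pt e P u (μ • ap b r - r) := fun u r => by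
      rw [hΔpt, hμ, pt_smul_left, ← pt_smul_right, ← pt_sub_right]
    refine ⟨z, μ⁻¹, hr, ?_, ?_, ?_⟩
    · have h1 := hΔiso (pt e P ua r)
      rw [hΔz, ← hz, hT.form_pt] at h1
      simpa [hT.c_ne, hua] using h1
    · have h1 := hΔΔ (pt e P ua r)
      rw [hΔz, ← hz, hΔz, ← pt_zero_right e P ua] at h1
      have h2 := sub_eq_zero.mp (pt_inj_right e P hua0 h1)
      conv_rhs => rw [← h2, inv_smul_smul₀ hμ0]
    · rw [map_inv₀, ← mul_inv]
      exact inv_eq_of_mul_eq_one_left hμν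
  -- a non-scalar first factor
  push Not at heig
  obtain ⟨u, hu⟩ := heig
  simp only [LinearEquiv.coe_coe, apEquiv_apply] at hu
  have hu0 : u ≠ 0 := fun h => hu 0 (by rw [h, ap_zero, smul_zero])
  have hquad : ∀ x r, pt e P (ap a (ap a x)) (ap b (ap b r)) - (2 : F) • pt e P (ap a x) (ap b r) +
      pt e P x r = 0 := fun x r => by
    have h := hΔΔ (pt e P x r)
    rw [hΔpt, map_sub, hΔpt, hΔpt] at h
    rw [← h]
    module
  obtain ⟨r₁, hr₁⟩ : ∃ r : Fin n₂ → F, r ≠ 0 :=
    ⟨Pi.single ⟨0, by omega⟩ 1, fun h => by simpa using congrFun h ⟨0, by omega⟩⟩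
  -- the square of `a` on `u`
  obtain ⟨α, β, hαβ⟩ : ∃ α β : F, ap a (ap a u) = α • ap a u + β • u := by
    by_contra hc
    push Not at hc
    obtain ⟨φ, hφ, hφ1⟩ := exists_functional_eq_one
      (U := Submodule.span F ({ap a u, u} : Set (Fin n₁ → F))) (x := ap a (ap a u)) (fun hm => by
        obtain ⟨α, β, h⟩ := Submodule.mem_span_pair.mp hm
        exact hc α β h.symm)
    have h := congrArg (conr e P φ) (hquad u r₁)
    simp only [map_add, map_sub, map_smul, conr_pt, hφ1, hφ (ap a u) (Submodule.subset_span (by simp)),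
      hφ u (Submodule.subset_span (by simp)),
      zero_smul, one_smul, smul_zero, sub_zero, add_zero, map_zero] at h
    exact ap_ne_zero b (ap_ne_zero b hr₁) h
  obtain ⟨δ₁, hδ₁, hδ₁a⟩ := exists_functional_eq_one
    (U := Submodule.span F {u}) (x := ap a u) fun hm => by
      obtain ⟨t, ht⟩ := Submodule.mem_span_singleton.mp hm
      exact hu t ht.symm
  obtain ⟨δ₂, hδ₂, hδ₂u⟩ := exists_functional_eq_one
    (U := Submodule.span F {ap a u}) (x := u) fun hm => by
      obtain ⟨t, ht⟩ := Submodule.mem_span_singleton.mp hm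
      have ht0 : t ≠ 0 := fun h0 => hu0 (by rw [← ht, h0, zero_smul])
      exact hu t⁻¹ (by conv_rhs => rw [← ht, inv_smul_smul₀ ht0])
  have eq1 : ∀ r, α • ap b (ap b r) = (2 : F) • ap b r := fun r => by
    have h := congrArg (conr e P δ₁) (hquad u r)
    simp only [hαβ, map_add, map_sub, map_smul, conr_pt, hδ₁a,
      hδ₁ _ (Submodule.mem_span_singleton_self u), smul_eq_mul, mul_zero, mul_one, add_zero,
      zero_smul, one_smul, map_zero] at h
    exact sub_eq_zero.mp h
  have eq2 : ∀ r, β • ap b (ap b r) = -r := fun r => by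
    have h := congrArg (conr e P δ₂) (hquad u r)
    simp only [hαβ, map_add, map_sub, map_smul, conr_pt, hδ₂u,
      hδ₂ _ (Submodule.mem_span_singleton_self (ap a u)), smul_eq_mul, mul_zero, mul_one, zero_add,
      zero_smul, smul_zero, sub_zero, one_smul, map_zero] at h
    exact eq_neg_of_add_eq_zero_left h
  have hβ : β ≠ 0 := fun h0 => hr₁ (by simpa [h0] using (eq2 r₁).symm)
  have hbb : ∀ r, ap b (ap b r) = (-β⁻¹) • r := fun r => by
    have := congrArg (β⁻¹ • ·) (eq2 r)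
    simp only [smul_smul, inv_mul_cancel₀ hβ, one_smul] at this
    rw [this, smul_neg, neg_smul]
  -- normalised factors
  obtain ⟨la, M₂, hla, hM₂, hbM, hM2, hsq⟩ : ∃ (l : F) (M₂ : (Fin n₂ → F) →ₗ[F] (Fin n₂ → F)),
      l ≠ 0 ∧ (∀ r, M₂ (M₂ r) = 0) ∧ (∀ r, ap b r = l • (r + M₂ r)) ∧
        (∀ r, (2 : F) • M₂ r = 0) ∧ ∀ r, ap b (ap b r) = (l * l) • r := by
    by_cases h2 : (2 : F) = 0
    · have : CharP F 2 := CharTwo.of_one_ne_zero_of_two_eq_zero one_ne_zero h2
      obtain ⟨ρ, hρ⟩ : IsSquare (-β⁻¹) := by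
        have := Fintype.ofFinite F
        exact FiniteField.isSquare_of_char_two (ringChar.eq F 2) _
      have hρ0 : ρ ≠ 0 := fun h0 => hβ (by simpa [h0] using hρ)
      refine ⟨ρ, ρ⁻¹ • (apEquiv b).toLinearMap - LinearMap.id, hρ0, fun r => ?_, fun r => ?_,
        fun r => by rw [h2, zero_smul], fun r => by rw [hbb, hρ]⟩
      · simp only [LinearMap.sub_apply, LinearMap.smul_apply, LinearEquiv.coe_coe, apEquiv_apply,
          LinearMap.id_apply, ap_sub, ap_smul, hbb, hρ, smul_sub, smul_smul]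
        have e1 : ρ⁻¹ * (ρ⁻¹ * (ρ * ρ)) = 1 := by field_simp
        rw [e1, one_smul, show (r - ρ⁻¹ • ap b r) - (ρ⁻¹ • ap b r - r) =
          (2 : F) • r - (2 : F) • (ρ⁻¹ • ap b r) by module, h2]
        simp
      · simp [smul_smul, mul_inv_cancel₀ hρ0]
    · have hα : α ≠ 0 := by
        intro h0
        have h := eq1 r₁
        rw [h0, zero_smul] at h
        exact ap_ne_zero b hr₁ ((smul_eq_zero.mp h.symm).resolve_left h2)
      set l := (2 : F)⁻¹ * (α * -β⁻¹) with hldef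
      have hl : ∀ r, ap b r = l • r := fun r => by
        have := congrArg ((2 : F)⁻¹ • ·) (eq1 r)
        simp only [smul_smul, inv_mul_cancel₀ h2, one_smul, hbb] at this
        rw [hldef, ← this, ← mul_assoc]
      refine ⟨l, 0, mul_ne_zero (inv_ne_zero h2)
        (mul_ne_zero hα (neg_ne_zero.mpr (inv_ne_zero hβ))), fun r => rfl, fun r => ?_,
        fun r => by simp, fun r => by rw [hl, hl, smul_smul]⟩
      rw [hl, LinearMap.zero_apply, add_zero]
  obtain ⟨ya, hya⟩ := exists_aniso hT.skew₂ (by omega)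
  have hlν : la * σ la = ν := by
    by_cases h2 : (2 : F) = 0
    · have h := hb (ap b ya) (ap b ya)
      rw [hsq, hT.skew₂.smul_left, smul_right hT.skew₂, hb, map_mul] at h
      have h' : (la * σ la - ν) ^ 2 = 0 := mul_right_cancel₀ hya (by
        linear_combination h + (ν * ν - la * σ la * ν) * f₂ ya ya * h2)
      exact sub_eq_zero.mp (eq_zero_of_pow_eq_zero h')
    · have h := hb ya ya
      rw [hbM, (smul_eq_zero.mp (hM2 ya)).resolve_left h2, add_zero, hT.skew₂.smul_left,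
        smul_right hT.skew₂, ← mul_assoc] at h
      exact mul_right_cancel₀ hya h
  by_cases hall : ∀ r, M₂ r = 0
  · obtain ⟨z, -, hz0, hz⟩ := exists_isotropic hT.skew₂ (nondeg_perp_bot hT.skew₂)
      (by rw [finrank_perp_bot hT.skew₂, Fintype.card_fin]; omega)
    exact ⟨z, la, hz0, hz, by rw [hbM, hall, add_zero], hlν⟩
  push Not at hall
  obtain ⟨r, hr⟩ := hall
  have hbz : ap b (M₂ r) = la • M₂ r := by rw [hbM, hM₂, add_zero]
  refine ⟨M₂ r, la, hr, ?_, hbz, hlν⟩
  have h := hb r (M₂ r)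
  rw [hbz, hbM, hT.skew₂.smul_left, smul_right hT.skew₂, hT.skew₂.add_left, ← mul_assoc,
    hlν] at h
  exact add_left_cancel ((mul_left_cancel₀ hν0 h).trans (add_zero _).symm)

end HTensor

end CfsgLib.Geometric.Unitary
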