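import Cfsg.Agent.Lib.Geometric.UnitaryTensorMax.Gen
import Cfsg.Agent.Lib.Geometric.UnitaryTensorMax.Counting

/-!
In an overgroup of the stabiliser of a unitary tensor product: a conjugate of a factorwise
transvection is factorwise only trivially, and a singular pairing gains fixed vectors on a slice.
-/

namespace CfsgLib.Geometric.Unitary

open Matrix Tensor

variable {ι : Type} [Fintype ι] [DecidableEq ι] {F : Type*} [Field F] {σ : F ≃+* F}
variable {f : (ι → F) → (ι → F) → F} {n₁ n₂ : ℕ} {e : ι ≃ Fin n₁ × Fin n₂}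
  {P : GL ι F} {f₁ : (Fin n₁ → F) → (Fin n₁ → F) → F} {f₂ : (Fin n₂ → F) → (Fin n₂ → F) → F}
  {c : F}

namespace HTensor

variable (hT : HTensor σ f e P f₁ f₂ c) {M : Subgroup (GL ι F)}
variable [Finite F] (hM : hT.Small M) (h12 : n₁ < n₂)
include hT hM h12

/-- A conjugate of a factorwise transvection is factorwise only trivially. -/
lemma mem_of_conj_T {g : GL ι F} (hg : g ∈ M) {z : Fin n₂ → F} (hz : f₂ z z = 0) (hz0 : z ≠ 0)
    {t : F} (ht : σ t = t) (ht0 : t ≠ 0)
    (hy : g * kron e P (1 : GL (Fin n₁) F) (T hT.skew₂ z t hz) * g⁻¹ ∈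
      Cfsg.Geo.tensorProductSubgroup n₁ n₂ e P) :
    g ∈ Cfsg.Geo.tensorProductSubgroup n₁ n₂ e P := by
  have hp := hT.pos₁
  set y := g * kron e P (1 : GL (Fin n₁) F) (T hT.skew₂ z t hz) * g⁻¹ with hydef
  have hyx : ∀ x, ap y x = x + t • ap g (pt e P (hT.cc z (ap g⁻¹ x)) z) := by
    intro x
    rw [hydef, ap_mul, ap_mul, hT.ap_kron_T, ap_add, ap_ap_inv, ap_smul]
  obtain ⟨a, b, hab⟩ := (mem_iff e P y).mp hy
  have heig : ∀ u, ∃ s : F, (apEquiv a).toLinearMap u = s • u := by
    intro u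
    by_cases hu : u = 0
    · exact ⟨0, by simp [hu, ap_zero]⟩
    have hker : LinearMap.ker ((hT.cc z).comp ((apEquiv g⁻¹).toLinearMap.comp (ptr e P u)))
        ≠ ⊥ := LinearMap.ker_ne_bot_of_finrank_lt (by simpa using h12)
    obtain ⟨r, hr, hr0⟩ := Submodule.exists_mem_ne_zero_of_ne_bot hker
    simp only [LinearMap.mem_ker, LinearMap.comp_apply, LinearEquiv.coe_coe, apEquiv_apply,
      ptr_apply] at hr
    have h1 := hyx (pt e P u r)
    rw [hr, pt_zero_left, ap_zero, smul_zero, add_zero, hab] at h1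
    obtain ⟨j, hj⟩ := Function.ne_iff.mp (ap_ne_zero b hr0)
    refine ⟨r j / ap b r j, funext fun i => ?_⟩
    have h2 := congrFun ((coords e P).injective h1) (i, j)
    simp only [Pi.zero_apply] at hj
    simp only [LinearEquiv.coe_coe, apEquiv_apply, Pi.smul_apply, smul_eq_mul] at h2 ⊢
    field_simp
    linear_combination h2
  obtain ⟨μ, hμ⟩ := exists_scalar heig
  simp only [LinearEquiv.coe_coe, apEquiv_apply] at hμ
  have hyb : ∀ u r, ap y (pt e P u r) = pt e P u (μ • ap b r) := fun u r => by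
    rw [hab, hμ, pt_smul_left, pt_smul_right]
  obtain ⟨ua, hua⟩ := exists_aniso hT.skew₁ (by omega)
  have hua0 : ua ≠ 0 := fun h => hua (by rw [h, zero_left hT.skew₁])
  obtain ⟨r, hr⟩ : ∃ r, μ • ap b r - r ≠ 0 := by
    by_contra hc
    push Not at hc
    have hy1 : y = 1 := gl_ext_pt e P fun u r => by rw [hyb, sub_eq_zero.mp (hc r), ap_one]
    have hk1 : kron e P (1 : GL (Fin n₁) F) (T hT.skew₂ z t hz) = 1 := by
      rwa [hydef, conj_eq_one_iff] at hy1
    obtain ⟨x, hx⟩ := exists_one hT.skew₂ hz0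
    have := congrArg (fun k => ap k (pt e P ua x)) hk1
    simp only [ap_kron, ap_one, ap_T hT.skew₂, hx, mul_one] at this
    have := pt_inj_right e P hua0 this
    simp [ht0, hz0] at this
  set z' := μ • ap b r - r
  have himg : ∀ u, ap g⁻¹ (pt e P u z') = pt e P (t • hT.cc z (ap g⁻¹ (pt e P u r))) z := fun u => by
    have h1 := hyx (pt e P u r)
    rw [hyb, add_comm, ← sub_eq_iff_eq_add, ← pt_sub_right] at h1
    rw [pt_smul_left, h1, ap_smul, ap_inv_ap]
  have hz' : f₂ z' z' = 0 := by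
    have h1 := mem_isom_iff.mp (hM.le_isom (inv_mem hg)) (pt e P ua z') (pt e P ua z')
    rw [himg, hT.form_pt, hz, mul_zero, mul_zero, hT.form_pt] at h1
    simpa [hT.c_ne, hua] using h1.symm
  simpa using inv_mem (hT.mem_of_slice_map hM (inv_mem hg) hz' hr hz hz0
    fun u => by rw [himg]; exact pt_mem_slice e P _ _)

/-- A singular pairing gives more fixed vectors on the slice. -/
lemma exists_more {w : Fin n₂ → F} (hw : f₂ w w = 0) (hw0 : w ≠ 0) {k : GL ι F} (hk : k ∈ M)
    (hkT : k ∉ Cfsg.Geo.tensorProductSubgroup n₁ n₂ e P) {U : Submodule F (Fin n₁ → F)}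
    (hfix : ∀ u ∈ U, ap k (pt e P u w) = pt e P u w) {E : ℕ} {b : Fin E → Fin n₁ → F}
    (hb : ∀ a : Fin n₁ → F, ∃ u ∈ U, ∃ l : Fin E → F, a = u + ∑ i, l i • b i)
    (hbU : ∀ l : Fin E → F, ∑ i, l i • b i ∈ U → l = 0)
    (hdet : Matrix.det (Matrix.of fun i j => f (ap k (pt e P (b i) w)) (pt e P (b j) w)) = 0) :
    ∃ g ∈ M, g ∉ Cfsg.Geo.tensorProductSubgroup n₁ n₂ e P ∧ ∃ U' : Submodule F (Fin n₁ → F),
      U < U' ∧ ∀ u ∈ U', ap g (pt e P u w) = pt e P u w := by
  classical
  obtain ⟨l, hl0, hl⟩ := Matrix.exists_vecMul_eq_zero_iff.mpr hdet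
  set a := ∑ i, l i • b i with ha
  have haU : a ∉ U := fun h => hl0 (hbU l h)
  have hkI := hM.le_isom hk
  have hab : ∀ j, f (ap k (pt e P a w)) (pt e P (b j) w) = 0 := fun j => by
    have h := congrFun hl j
    simp only [Matrix.vecMul, dotProduct, Matrix.of_apply, Pi.zero_apply] at h
    have h1 : fl hT.skew (pt e P (b j) w) (ap k (ptl e P w a)) = 0 := by
      rw [ha, map_sum, ← apEquiv_apply, map_sum, map_sum]
      simpa [map_smul, ap_smul] using h
    simpa using h1
  have haU' : ∀ u ∈ U, f (ap k (pt e P a w)) (pt e P u w) = 0 := fun u hu => by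
    rw [← hfix u hu, mem_isom_iff.mp hkI, hT.form_pt, hw, mul_zero, mul_zero]
  have hcc : hT.cc w (ap k (pt e P a w)) = 0 := eq_of_forall hT.skew₁ fun a' => by
    obtain ⟨u, hu, l', rfl⟩ := hb a'
    have h1 : f (ap k (pt e P a w)) (pt e P (u + ∑ i, l' i • b i) w) = 0 := by
      rw [pt_add_left, add_right hT.skew, haU' u hu, zero_add,
        show pt e P (∑ i, l' i • b i) w = ∑ i, ptl e P w (l' i • b i) from
          map_sum (ptl e P w) _ _]
      have : ∀ s : Finset (Fin E),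
          f (ap k (pt e P a w)) (∑ i ∈ s, ptl e P w (l' i • b i)) = 0 := fun s => by
        induction s using Finset.induction with
        | empty => simp [zero_right hT.skew]
        | insert i s hi ih =>
          rw [Finset.sum_insert hi, add_right hT.skew, ih, map_smul, smul_right hT.skew,
            ptl_apply, hab, mul_zero, add_zero]
      exact this Finset.univ
    rw [hT.form_right] at h1
    rw [zero_left hT.skew₁]
    exact (mul_eq_zero.mp h1).resolve_left hT.c_ne
  have hTM := hM.stab_le (hT.kron_T_mem hw (map_one σ))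
  set x := kron e P (1 : GL (Fin n₁) F) (T hT.skew₂ w 1 hw) with hx
  have hxfix : ∀ u, ap x (pt e P u w) = pt e P u w := fun u => by
    rw [hx, hT.ap_kron_T, cc_pt, hw, zero_smul, pt_zero_left, smul_zero, add_zero]
  refine ⟨k⁻¹ * x * k, mul_mem (mul_mem (inv_mem hk) hTM) hk, fun h => hkT ?_,
    U ⊔ Submodule.span F {a}, lt_of_le_of_ne le_sup_left fun he => haU ?_, fun u hu => ?_⟩
  · simpa using inv_mem (hT.mem_of_conj_T hM h12 (inv_mem hk) hw hw0 (map_one σ) one_ne_zero
      (by simpa [hx] using h))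
  · rw [he]
    exact Submodule.mem_sup_right (Submodule.mem_span_singleton_self a)
  · obtain ⟨u₁, hu₁, u₂, hu₂, rfl⟩ := Submodule.mem_sup.mp hu
    obtain ⟨s, rfl⟩ := Submodule.mem_span_singleton.mp hu₂
    have h1 : ap (k⁻¹ * x * k) (pt e P a w) = pt e P a w := by
      rw [ap_mul, ap_mul, hx, hT.ap_kron_T, hcc, pt_zero_left, smul_zero, add_zero, ap_inv_ap]
    have h2 : ap (k⁻¹ * x * k) (pt e P u₁ w) = pt e P u₁ w := by
      rw [ap_mul, ap_mul, hfix u₁ hu₁, hxfix]
      conv_lhs => rw [← hfix u₁ hu₁, ap_inv_ap]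
    rw [pt_add_left, pt_smul_left, ap_add, ap_smul, h1, h2]

end HTensor

end CfsgLib.Geometric.Unitary
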