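import Cfsg.Agent.Lib.Geometric.UnitaryTensorMax.Central

/-!
In an overgroup of the stabiliser of a unitary tensor product without transvections with pure
centres, an element mapping the slice of an isotropic vector into such a slice lies in the
stabiliser.
-/

namespace CfsgLib.Geometric.Unitary

open Matrix Tensor

variable {ι : Type} [Fintype ι] [DecidableEq ι] {F : Type*} [Field F]
variable {σ : F ≃+* F}

/-- An anisotropic vector orthogonal to a given one. -/
lemma exists_aniso_perp [Finite F] {m : ℕ} {g : (Fin m → F) → (Fin m → F) → F}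
    (hg : IsSkewForm σ g) (hm : 3 ≤ m) (x : Fin m → F) :
    ∃ z, g z x = 0 ∧ g z z ≠ 0 := by
  by_contra hc
  push Not at hc
  set U := Submodule.span F {x}
  have hP : ∀ z ∈ perp hg U, g z z = 0 := fun z hz => hc z ((mem_perp_span hg).mp hz)
  have hle : perp hg U ≤ U := fun z hz => mem_of_forall_perp hg fun p hp =>
    totallySingular_of_isotropic hg hP hz hp
  have h1 : Module.finrank F U ≤ 1 := by
    have := finrank_span_finset_le_card (R := F) ({x} : Finset (Fin m → F))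
    rwa [Set.finrank, Finset.coe_singleton, Finset.card_singleton] at this
  have h2 := card_le_finrank_add_finrank_perp hg U
  have h3 := Submodule.finrank_mono hle
  rw [Fintype.card_fin] at h2
  omega

/-- Every vector orthogonal to `w` is a sum of two isotropic ones orthogonal to `w`. -/
lemma exists_isotropic_add_perp [Finite F] {m : ℕ} {g : (Fin m → F) → (Fin m → F) → F}
    (hg : IsSkewForm σ g) (hm : 4 ≤ m) {w y : Fin m → F} (hy : g y w = 0) :
    ∃ y₁ y₂, g y₁ w = 0 ∧ g y₂ w = 0 ∧ g y₁ y₁ = 0 ∧ g y₂ y₂ = 0 ∧ y = y₁ + y₂ := by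
  by_cases hyy : g y y = 0
  · exact ⟨y, 0, hy, zero_left hg w, hyy, zero_left hg 0, (add_zero y).symm⟩
  obtain ⟨z, hzw, hzy, hzz⟩ : ∃ z, g z w = 0 ∧ g z y = 0 ∧ g z z ≠ 0 := by
    by_contra hc
    push Not at hc
    set U := Submodule.span F (Set.range ![w, y]) with hU
    have hP : ∀ z ∈ perp hg U, g z z = 0 := fun z hz =>
      hc z (hz w (Submodule.subset_span ⟨0, rfl⟩)) (hz y (Submodule.subset_span ⟨1, rfl⟩))
    have hle : perp hg U ≤ U := fun z hz => mem_of_forall_perp hg fun p hp =>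
      totallySingular_of_isotropic hg hP hz hp
    have h1 : Module.finrank F U ≤ 2 := by
      have := finrank_range_le_card (R := F) ![w, y]
      rwa [Set.finrank, Fintype.card_fin] at this
    have h2 := card_le_finrank_add_finrank_perp hg U
    have h3 := Submodule.finrank_mono hle
    rw [Fintype.card_fin] at h2
    have heq : perp hg U = U := Submodule.eq_of_le_of_finrank_le hle (by omega)
    exact hyy (hP y (heq.symm ▸ Submodule.subset_span ⟨1, rfl⟩))
  obtain ⟨y₁, y₂, h1, h2, h3, h4, h5⟩ := exists_isotropic_add hg (S := LinearMap.ker (fl hg w))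
    (x := y) (e := z) (by simpa using hy) (by simpa using hzw) hzz ((eq_zero_comm hg).mp hzy)
  exact ⟨y₁, y₂, by simpa using h1, by simpa using h2, h3, h4, h5⟩

namespace HTensor

variable {f : (ι → F) → (ι → F) → F} {n₁ n₂ : ℕ} {e : ι ≃ Fin n₁ × Fin n₂}
  {P : GL ι F} {f₁ : (Fin n₁ → F) → (Fin n₁ → F) → F} {f₂ : (Fin n₂ → F) → (Fin n₂ → F) → F}
  {c : F} (hT : HTensor σ f e P f₁ f₂ c) {M : Subgroup (GL ι F)}

/-- The setting of the descent: an overgroup without transvections with pure centres. -/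
structure Small (hT : HTensor σ f e P f₁ f₂ c) (M : Subgroup (GL ι F)) : Prop where
  le_isom : M ≤ isom f
  stab_le : Cfsg.Geo.tensorProductSubgroup n₁ n₂ e P ⊓ (isom f ⊓ Cfsg.Geo.specialLinear ι F) ≤ M
  fieldOrRank : 3 ≤ n₁ ∨ ∃ t : F, σ t = t ∧ t ≠ 0 ∧ t ≠ 1
  noRoot : ∀ u w, u ≠ 0 → w ≠ 0 → f₁ u u = 0 → f₂ w w = 0 →
    ¬ hT.HasRootAt M (pt e P u w)

variable [Finite F] (hM : hT.Small M)
include hT hM

lemma scalar_of_cen {w : Fin n₂ → F} (hw : f₂ w w = 0) (hw0 : w ≠ 0)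
    {A : (Fin n₁ → F) →ₗ[F] (Fin n₁ → F)} (h : hT.Cen M w A) : ∃ t : F, ∀ x, A x = t • x := by
  by_contra hc
  push Not at hc
  obtain ⟨u, hu0, hu, hr⟩ := hT.exists_root hw hM.stab_le hM.le_isom hw0 hM.fieldOrRank h hc
  exact hM.noRoot u w hu0 hw0 hu hw hr

/-- An element fixing a slice pointwise shifts the orthogonal slices by scalars. -/
lemma scalar_of_shift {w : Fin n₂ → F} (hw : f₂ w w = 0) (hw0 : w ≠ 0) {r : GL ι F} (hr : r ∈ M)
    (hfix : ∀ u, ap r (pt e P u w) = pt e P u w) {y : Fin n₂ → F} (hy : f₂ y w = 0)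
    {β : (Fin n₁ → F) →ₗ[F] (Fin n₁ → F)}
    (hβ : ∀ u, ap r (pt e P u y) = pt e P u y + pt e P (β u) w) :
    ∃ θ : F, ∀ u, β u = θ • u := by
  obtain ⟨z, hz⟩ := exists_one hT.skew₂ hw0
  have hrI := hM.le_isom hr
  set γ : (Fin n₁ → F) →ₗ[F] (Fin n₁ → F) :=
    (hT.cc y).comp (((apEquiv r⁻¹).toLinearMap - LinearMap.id).comp (ptl e P z)) with hγ
  -- the contraction after `r`
  have hD : ∀ X, hT.cc y (ap r⁻¹ X) = hT.cc y X + γ (hT.cc w X) := by
    have hD0 : ∀ X a, f₁ (hT.cc y (ap r⁻¹ X)) a = f₁ (hT.cc y X) a + f₁ (hT.cc w X) (β a) := by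
      intro X a
      have h := mem_isom_iff.mp hrI (ap r⁻¹ X) (pt e P a y)
      rw [ap_ap_inv, hβ, add_right hT.skew, hT.form_right, hT.form_right, hT.form_right,
        ← mul_add] at h
      exact (mul_left_cancel₀ hT.c_ne h).symm
    have hγ1 : ∀ u a, f₁ (γ u) a = f₁ u (β a) := fun u a => by
      simp [hγ, sub_left hT.skew₁, hD0, hz, hT.skew₁.smul_left]
    intro X
    refine eq_of_forall hT.skew₁ fun a => ?_
    rw [hD0, hT.skew₁.add_left, hγ1]
  -- the commutators with the multiples of `y`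
  have key : ∀ l : F, ∃ t : F, ∀ x, l • β x + σ l • γ x = t • x := by
    intro l
    have hly : f₂ (l • y) w = 0 := by rw [hT.skew₂.smul_left, hy, mul_zero]
    obtain ⟨s, hs⟩ := exists_sub_eq hT.skew₂ (s := f₂ (l • y) (l • y)) (skew_self hT.skew₂ _)
    set h := kron e P (1 : GL (Fin n₁) F) (E hT.skew₂ w (l • y) s hw hly)
    have hh : h ∈ M := hM.stab_le (hT.kron_E_mem hw hly hs)
    refine hT.scalar_of_cen hM hw hw0 (A := l • β + σ l • γ)
      ⟨r * h * r⁻¹ * h⁻¹, mul_mem (mul_mem (mul_mem hr hh) (inv_mem hr)) (inv_mem hh), fun X => ?_⟩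
    obtain ⟨X, rfl⟩ : ∃ X', ap h X' = X := ⟨_, ap_ap_inv h X⟩
    rw [ap_mul, ap_mul, ap_mul, ap_inv_ap]
    have hc : hT.cc w (ap r⁻¹ X) = hT.cc w X := eq_of_forall hT.skew₁ fun a => by
      rw [← hT.cc_ap hrI (hfix a), ap_ap_inv]
    simp only [h, hT.ap_kron_E w (l • y) hw hly, map_add, map_smul, cc_pt, hw, hly, hy, zero_smul,
      smul_zero, add_zero, hc, hT.cc_smul, hD, ap_add, ap_smul, ap_ap_inv, hfix, hβ,
      LinearMap.add_apply, LinearMap.smul_apply, pt_smul_right, pt_smul_left, pt_add_left]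
    module
  obtain ⟨a, ha⟩ : ∃ a, σ a ≠ a := by
    by_contra h
    push Not at h
    exact hT.skew.ne_refl (RingEquiv.ext h)
  obtain ⟨t₁, h₁⟩ := key 1
  obtain ⟨t₂, h₂⟩ := key a
  refine ⟨(a - σ a)⁻¹ * (t₂ - σ a * t₁), fun u => ?_⟩
  rw [← smul_smul, eq_inv_smul_iff₀ (sub_ne_zero.mpr (Ne.symm ha))]
  have e1 := h₁ u
  have e2 := h₂ u
  rw [map_one, one_smul, one_smul] at e1
  rw [sub_smul, sub_smul, ← e2, ← smul_smul, ← e1]
  module

/-- An element mapping a slice into a slice acts factorwise on the orthogonal slices. -/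
lemma map_perp {g : GL ι F} (hg : g ∈ M) {w w' : Fin n₂ → F} (hw : f₂ w w = 0) (hw0 : w ≠ 0)
    (hw' : f₂ w' w' = 0) (hw'0 : w' ≠ 0) {G : GL (Fin n₁) F}
    (hG : ∀ u, ap g (pt e P u w) = pt e P (ap G u) w') {u₀ : Fin n₁ → F}
    {α : (Fin n₁ → F) →ₗ[F] F} (hα : α (ap G u₀) = 1) :
    ∀ y, f₂ y w = 0 → ∀ u,
      ap g (pt e P u y) = pt e P (ap G u) (conr e P α (ap g (pt e P u₀ y))) := by
  have hp := hT.pos₁
  have hgI := hM.le_isom hg
  have hginv : ∀ u, ap g⁻¹ (pt e P u w') = pt e P (ap G⁻¹ u) w := fun u => ap_injective g (by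
    rw [ap_ap_inv, hG, ap_ap_inv])
  have hgiI : g⁻¹ ∈ isom f := inv_mem hgI
  set ψ := (conr e P α).comp ((apEquiv g).toLinearMap.comp (ptr e P u₀)) with hψ
  have hψy : ∀ y, conr e P α (ap g (pt e P u₀ y)) = ψ y := fun y => rfl
  -- the image of an orthogonal slice lies in the orthogonal of the slice
  have hperp : ∀ u y, f₂ y w = 0 → hT.cc w' (ap g (pt e P u y)) = 0 := fun u y hy =>
    eq_of_forall hT.skew₁ fun b => by
      have h := hT.cc_ap hgI (hG (ap G⁻¹ b)) (pt e P u y)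
      rw [ap_ap_inv, cc_pt, hy, zero_smul, zero_left hT.skew₁] at h
      rw [h, zero_left hT.skew₁]
  -- the contractions orthogonal to the slice are scalar
  have hscal : ∀ y, f₂ y w = 0 → ∀ y', f₂ y' w' = 0 → ∀ u,
      hT.cc y' (ap g (pt e P u y)) = f₂ (ψ y) y' • ap G u := by
    intro y hy y' hy'
    obtain ⟨s, hs⟩ := exists_sub_eq hT.skew₂ (s := f₂ y' y') (skew_self hT.skew₂ _)
    set h := kron e P (1 : GL (Fin n₁) F) (E hT.skew₂ w' y' s hw' hy')
    have hh : h ∈ M := hM.stab_le (hT.kron_E_mem hw' hy' hs)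
    obtain ⟨θ, hθ⟩ := hT.scalar_of_shift hM hw hw0
      (r := g⁻¹ * h * g) (mul_mem (mul_mem (inv_mem hg) hh) hg) (fun u => by
        simp [ap_mul, h, hG, hT.ap_kron_E w' y' hw' hy', hw', (eq_zero_comm hT.skew₂).mp hy',
          pt_zero_left, hginv, ap_inv_ap]) hy
      (β := (apEquiv G⁻¹).toLinearMap ∘ₗ (hT.cc y') ∘ₗ (apEquiv g).toLinearMap ∘ₗ ptl e P y)
      (fun u => by
        simp [ap_mul, h, hT.ap_kron_E w' y' hw' hy', hperp u y hy, pt_zero_left, ap_add,
          ap_inv_ap, hginv])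
    have h1 : ∀ u, hT.cc y' (ap g (pt e P u y)) = θ • ap G u := fun u => by
      have := congrArg (ap G) (hθ u)
      simpa [ap_ap_inv, ap_smul] using this
    have h2 : f₂ (ψ y) y' = θ := by
      rw [← fl_apply hT.skew₂, ← hψy, apply_conr]
      simpa [cc, hα] using congrArg α (h1 u₀)
    intro u
    rw [h2, h1]
  have hψperp : ∀ y, f₂ y w = 0 → f₂ (ψ y) w' = 0 := fun y hy => by
    rw [← fl_apply hT.skew₂, ← hψy, apply_conr]
    simpa [cc] using congrArg α (hperp u₀ y hy)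
  obtain ⟨ω, -, hω⟩ := exists_functional_eq_one
    (U := (⊥ : Submodule F (Fin n₂ → F))) (x := w') (by simpa using hw'0)
  let R : (Fin n₂ → F) → (Fin n₁ → F) →ₗ[F] (Fin n₁ → F) := fun y =>
    (con e P ω).comp ((apEquiv g).toLinearMap.comp (ptl e P y) -
      (ptl e P (ψ y)).comp (apEquiv G).toLinearMap)
  have hform : ∀ y, f₂ y w = 0 → ∀ u,
      ap g (pt e P u y) = pt e P (ap G u) (ψ y) + pt e P (R y u) w' := by
    intro y hy u
    rw [← sub_eq_iff_eq_add']
    refine mem_slice_of_con e P hω fun φ hφ => ?_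
    obtain ⟨y', rfl⟩ := exists_eq_fl hT.skew₂ φ
    have hy' : f₂ y' w' = 0 := (eq_zero_comm hT.skew₂).mp (by simpa using hφ)
    rw [map_sub, con_pt, fl_apply]
    exact sub_eq_zero.mpr (hscal y hy y' hy' u)
  -- `G` is a similitude
  obtain ⟨z', hz'⟩ := exists_one hT.skew₂ hw'0
  set N := (hT.cc w).comp ((apEquiv g⁻¹).toLinearMap.comp (ptl e P z')) with hN
  have hN0 : ∀ X a, f₁ (hT.cc w (ap g⁻¹ X)) a = f₁ (hT.cc w' X) (ap G a) := fun X a => by
    rw [← hT.cc_ap hgI (hG a) (ap g⁻¹ X), ap_ap_inv]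
  have hN1 : ∀ X, hT.cc w (ap g⁻¹ X) = N (hT.cc w' X) := fun X =>
    eq_of_forall hT.skew₁ fun a => by
      rw [hN0]
      simp [hN, hN0, hz']
  obtain ⟨ν, hν⟩ := hT.scalar_of_cen hM hw' hw'0 (A := (apEquiv G).toLinearMap ∘ₗ N)
    ⟨g * kron e P 1 (T hT.skew₂ w 1 hw) * g⁻¹,
      mul_mem (mul_mem hg (hM.stab_le (hT.kron_T_mem hw (map_one σ)))) (inv_mem hg), fun X => by
        rw [ap_mul, ap_mul, hT.ap_kron_T, ap_add, ap_ap_inv, one_smul, hG, hN1]
        rfl⟩
  have hsim : ∀ a b, f₁ a (ap G b) = ν * f₁ (ap G⁻¹ a) b := fun a b => by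
    have h := hN0 (pt e P a z') b
    rw [cc_pt, hz', one_smul] at h
    have h2 : hT.cc w (ap g⁻¹ (pt e P a z')) = ν • ap G⁻¹ a := by
      have h3 := congrArg (ap G⁻¹) (hν a)
      rw [LinearMap.comp_apply, LinearEquiv.coe_coe, apEquiv_apply, ap_inv_ap, ap_smul] at h3
      rw [hN1, cc_pt, hz', one_smul, h3]
    rw [h2, hT.skew₁.smul_left] at h
    exact h.symm
  obtain ⟨ua, hua⟩ := exists_aniso hT.skew₁ (by omega)
  have hGua : f₁ (ap G ua) (ap G ua) = ν * f₁ ua ua := by rw [hsim, ap_inv_ap]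
  have hν0 : ν ≠ 0 := by
    intro h0
    obtain ⟨b, hb⟩ := (hT.skew₁.nondegenerate (ap G ua) (ap_ne_zero G fun h => hua (by
      rw [h, zero_left hT.skew₁]))).1
    apply hb
    rw [hsim, h0, zero_mul]
  have hνσ : σ ν = ν := by
    have h := skew_self hT.skew₁ (ap G ua)
    rw [hGua, map_mul, skew_self hT.skew₁] at h
    exact mul_right_cancel₀ hua (by linear_combination -h)
  -- isotropic vectors
  have hiso : ∀ y, f₂ y w = 0 → f₂ y y = 0 → ∀ u, ap g (pt e P u y) = pt e P (ap G u) (ψ y) := by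
    intro y hy hyy
    by_cases hψ' : ψ y ∈ Submodule.span F {w'}
    · obtain ⟨s, hs⟩ := Submodule.mem_span_singleton.mp hψ'
      have h0 := hform y hy u₀
      rw [← hs, pt_smul_right, ← pt_smul_left, ← pt_add_left] at h0
      obtain ⟨u', hu'⟩ : ∃ u', pt e P u₀ y = pt e P u' w :=
        ⟨ap G⁻¹ (s • ap G u₀ + R y u₀), ap_injective g (by rw [h0, hG, ap_ap_inv])⟩
      have hu₀ : u₀ ≠ 0 := fun h => by simp [h, ap_zero] at hα
      obtain ⟨δ, -, hδ⟩ := exists_functional_eq_one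
        (U := (⊥ : Submodule F (Fin n₁ → F))) (x := u₀) (by simpa using hu₀)
      have hyw : y = δ u' • w := by
        simpa [hδ] using congrArg (conr e P δ) hu'
      intro u
      rw [hyw, pt_smul_right, ap_smul, hG, map_smul, ← pt_smul_right]
      congr 2
      simp [hψ, hG, hα]
    have hψψ : f₂ (ψ y) (ψ y) = 0 := by
      have h := mem_isom_iff.mp hgI (pt e P ua y) (pt e P ua y)
      rw [hform y hy] at h
      simp only [hT.skew.add_left, add_right hT.skew, hT.form_pt, hψperp y hy, hw',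
        (eq_zero_comm hT.skew₂).mp (hψperp y hy), hyy, mul_zero, add_zero, hGua] at h
      simpa [hT.c_ne, hν0, hua] using h
    have hwy : f₂ w y = 0 := (eq_zero_comm hT.skew₂).mp hy
    set τ := g * kron e P 1 (T hT.skew₂ y 1 hyy) * g⁻¹ with hτdef
    set h := kron e P (1 : GL (Fin n₁) F) (T hT.skew₂ (ψ y) ν hψψ) with hh
    have hτ : τ ∈ M :=
      mul_mem (mul_mem hg (hM.stab_le (hT.kron_T_mem hyy (map_one σ)))) (inv_mem hg)
    have hhM : h ∈ M := hM.stab_le (hT.kron_T_mem hψψ hνσ)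
    obtain ⟨y'', hy''p, hy''⟩ := exists_perp_ne hT.skew₂ hψ'
    have hy''w : f₂ y'' w' = 0 := (mem_perp_span hT.skew₂).mp hy''p
    have hθ : f₂ y'' (ψ y) ≠ 0 := hy'' ∘ (eq_zero_comm hT.skew₂).mp
    have hfixw : ∀ u, ap h (pt e P u w') = pt e P u w' := fun u => by
      rw [hh, hT.ap_kron_T, cc_pt, (eq_zero_comm hT.skew₂).mp (hψperp y hy)]
      simp [pt_zero_left]
    have hccy : ∀ u, hT.cc y (ap g⁻¹ (pt e P u y'')) = (ν * f₂ y'' (ψ y)) • ap G⁻¹ u := fun u =>
      eq_of_forall hT.skew₁ fun a => by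
        have h1 := mem_isom_iff.mp hgI (ap g⁻¹ (pt e P u y'')) (pt e P a y)
        rw [ap_ap_inv, hform y hy, add_right hT.skew, hT.form_pt, hT.form_pt, hy''w, mul_zero,
          mul_zero, add_zero, hT.form_right, hsim] at h1
        rw [hT.skew₁.smul_left]
        apply mul_left_cancel₀ hT.c_ne
        linear_combination -h1
    obtain ⟨ρ, hρ⟩ := hT.scalar_of_shift hM hw' hw'0 (r := h⁻¹ * τ)
      (mul_mem (inv_mem hhM) hτ) (fun u => ap_injective h (by
        rw [ap_mul, ap_ap_inv, hfixw, hτdef, ap_mul, ap_mul, hginv, hT.ap_kron_T, cc_pt, hwy,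
          zero_smul, pt_zero_left, smul_zero, add_zero, hG, ap_ap_inv])) hy''w
      (β := (ν * f₂ y'' (ψ y)) • (R y ∘ₗ (apEquiv G⁻¹).toLinearMap)) (fun u => ap_injective h (by
        rw [ap_mul, ap_ap_inv, ap_add, hfixw, hτdef, ap_mul, ap_mul, hT.ap_kron_T, hccy, ap_add,
          ap_ap_inv, one_smul, pt_smul_left, ap_smul, hform y hy, ap_ap_inv, hh, hT.ap_kron_T,
          cc_pt, LinearMap.smul_apply, pt_smul_left, pt_smul_left]
        simp only [LinearMap.comp_apply, LinearEquiv.coe_coe, apEquiv_apply]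
        module))
    have hθ' : ν * f₂ y'' (ψ y) ≠ 0 := mul_ne_zero hν0 hθ
    set θ := ν * f₂ y'' (ψ y)
    have hR : ∀ u, R y u = (θ⁻¹ * ρ) • ap G u := fun u => by
      have := hρ (ap G u)
      simp only [LinearMap.smul_apply, LinearMap.comp_apply, LinearEquiv.coe_coe, apEquiv_apply,
        ap_inv_ap] at this
      rw [← smul_smul, ← this, inv_smul_smul₀ hθ']
    have key : ∀ u, ap g (pt e P u y) = pt e P (ap G u) (ψ y + (θ⁻¹ * ρ) • w') := fun u => by
      rw [hform y hy, hR, pt_smul_left, ← pt_smul_right, ← pt_add_right]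
    have h0 : ψ y = ψ y + (θ⁻¹ * ρ) • w' := by
      conv_lhs => rw [← hψy, key, conr_pt, hα, one_smul]
    intro u
    rw [key, ← h0]
  intro y hy u
  obtain ⟨y₁, y₂, h1, h2, h3, h4, rfl⟩ := exists_isotropic_add_perp hT.skew₂ hT.pos₂ hy
  rw [hψy, map_add, pt_add_right, pt_add_right, ap_add, hiso y₁ h1 h3, hiso y₂ h2 h4]

/-- An element mapping a slice into a slice lies in the stabiliser. -/
theorem mem_of_slice_map {g : GL ι F} (hg : g ∈ M) {w w' : Fin n₂ → F} (hw : f₂ w w = 0)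
    (hw0 : w ≠ 0) (hw' : f₂ w' w' = 0) (hw'0 : w' ≠ 0)
    (hmap : ∀ u, ap g (pt e P u w) ∈ slice e P w') :
    g ∈ Cfsg.Geo.tensorProductSubgroup n₁ n₂ e P := by
  have hp := hT.pos₁
  obtain ⟨ω, -, hω⟩ := exists_functional_eq_one
    (U := (⊥ : Submodule F (Fin n₂ → F))) (x := w') (by simpa using hw'0)
  set G₀ := (con e P ω).comp ((apEquiv g).toLinearMap.comp (ptl e P w)) with hG₀
  have hG₁ : ∀ u, ap g (pt e P u w) = pt e P (G₀ u) w' := by
    intro u
    obtain ⟨u', hu'⟩ := hmap u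
    simp only [ptl_apply] at hu'
    simp [hG₀, ← hu', hω]
  have hGinj : Function.Injective G₀ := by
    intro u u' h
    exact pt_inj_left e P hw0 (ap_injective g (by rw [hG₁, hG₁, h]))
  let G : GL (Fin n₁) F :=
    ofEquiv (LinearEquiv.ofBijective G₀ ⟨hGinj, LinearMap.injective_iff_surjective.mp hGinj⟩)
  have hG : ∀ u, ap g (pt e P u w) = pt e P (ap G u) w' := fun u => by
    rw [hG₁, ap_ofEquiv]; rfl
  set u₀ : Fin n₁ → F := Pi.single ⟨0, by omega⟩ 1 with hu₀
  have hu₀0 : ap G u₀ ≠ 0 := ap_ne_zero G fun h => by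
    simpa [hu₀] using congrFun h ⟨0, by omega⟩
  obtain ⟨α, -, hα⟩ := exists_functional_eq_one
    (U := (⊥ : Submodule F (Fin n₁ → F))) (x := ap G u₀) (by simpa using hu₀0)
  set ψ := (conr e P α).comp ((apEquiv g).toLinearMap.comp (ptr e P u₀)) with hψ
  have h1 : ∀ y, f₂ y w = 0 → ∀ u, ap g (pt e P u y) = pt e P (ap G u) (ψ y) :=
    hT.map_perp hM hg hw hw0 hw' hw'0 hG hα
  -- an isotropic vector orthogonal to `w` outside its line, and one orthogonal to it
  obtain ⟨y, hy, hyy, hyn⟩ : ∃ y, f₂ y w = 0 ∧ f₂ y y = 0 ∧ y ∉ Submodule.span F {w} := by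
    obtain ⟨z, hz, hzz⟩ := exists_aniso_perp hT.skew₂ (by have := hT.pos₂; omega) w
    obtain ⟨y₁, y₂, h1, h2, h3, h4, rfl⟩ := exists_isotropic_add_perp hT.skew₂ hT.pos₂ hz
    by_cases hy₁ : y₁ ∈ Submodule.span F {w}
    · refine ⟨y₂, h2, h4, fun hy₂ => hzz ?_⟩
      obtain ⟨s, hs⟩ := Submodule.mem_span_singleton.mp (Submodule.add_mem _ hy₁ hy₂)
      rw [← hs, hT.skew₂.smul_left, smul_right hT.skew₂, hw, mul_zero, mul_zero]
    · exact ⟨y₁, h1, h3, hy₁⟩
  have hy0 : y ≠ 0 := fun h => hyn (by rw [h]; exact Submodule.zero_mem _)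
  have hwn : w ∉ Submodule.span F {y} := fun h => by
    obtain ⟨s, hs⟩ := Submodule.mem_span_singleton.mp h
    have hs0 : s ≠ 0 := fun h0 => hw0 (by rw [← hs, h0, zero_smul])
    exact hyn (Submodule.mem_span_singleton.mpr ⟨s⁻¹, by rw [← hs, inv_smul_smul₀ hs0]⟩)
  obtain ⟨p, hp', hwp⟩ := exists_perp_ne hT.skew₂ hwn
  obtain ⟨l, hl⟩ := exists_isotropic_shift hT.skew₂ hw (hwp ∘ (eq_zero_comm hT.skew₂).mp)
  set z := p + l • w with hz
  have hzy : f₂ z y = 0 := by
    rw [hz, hT.skew₂.add_left, hT.skew₂.smul_left, (mem_perp_span hT.skew₂).mp hp',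
      (eq_zero_comm hT.skew₂).mp hy, mul_zero, add_zero]
  have hzw : f₂ z w ≠ 0 := by
    rw [hz, hT.skew₂.add_left, hT.skew₂.smul_left, hw, mul_zero, add_zero]
    exact hwp ∘ (eq_zero_comm hT.skew₂).mp
  obtain ⟨ua, hua⟩ := exists_aniso hT.skew₁ (by omega)
  have hψy0 : ψ y ≠ 0 := fun h => by
    have := h1 y hy u₀
    rw [h, pt_zero_right, ← ap_zero g] at this
    exact pt_ne_zero e P (fun hu => hu₀0 (by rw [hu, ap_zero])) hy0 (ap_injective g this)
  have hψy : f₂ (ψ y) (ψ y) = 0 := by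
    have h := mem_isom_iff.mp (hM.le_isom hg) (pt e P (ap G⁻¹ ua) y) (pt e P (ap G⁻¹ ua) y)
    rw [h1 y hy, ap_ap_inv, hT.form_pt, hT.form_pt, hyy, mul_zero, mul_zero] at h
    simpa [hT.c_ne, hua] using h
  have h2 : ∀ u, ap g (pt e P u z) = pt e P (ap G u) (ψ z) :=
    hT.map_perp hM hg hyy hy0 hψy hψy0 (h1 y hy) hα z hzy
  have hall : ∀ u v, ap g (pt e P u v) = pt e P (ap G u) (ψ v) := by
    intro u v
    set s := f₂ v w / f₂ z w
    have hv : f₂ (v - s • z) w = 0 := by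
      rw [sub_left hT.skew₂, hT.skew₂.smul_left, div_mul_cancel₀ _ hzw, sub_self]
    conv_lhs => rw [show v = (v - s • z) + s • z by abel, pt_add_right, pt_smul_right, ap_add,
      ap_smul, h1 _ hv, h2, ← pt_smul_right, ← pt_add_right, ← map_smul, ← map_add,
      sub_add_cancel]
  have hψinj : Function.Injective ψ := by
    intro v v' h
    exact pt_inj_right e P (fun hu => hu₀0 (by rw [hu, ap_zero]))
      (ap_injective g (by rw [hall, hall, h]) : pt e P u₀ v = pt e P u₀ v')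
  let Ψ : GL (Fin n₂) F :=
    ofEquiv (LinearEquiv.ofBijective ψ ⟨hψinj, LinearMap.injective_iff_surjective.mp hψinj⟩)
  have hΨ : ∀ y, ap Ψ y = ψ y := fun y => by rw [ap_ofEquiv]; rfl
  exact (mem_iff e P g).mpr ⟨G, Ψ, fun x y => by rw [hΨ]; exact hall x y⟩

end HTensor

end CfsgLib.Geometric.Unitary
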